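import Mathlib
import Cfsg.Prelude.Def_HallClasses

/-!
# Regular pieces inside Hall subgroups of alternating groups

A Hall π-subgroup `M` of `Alt(α)` contains, for each prime in π, conjugates of the regular
representations of small `p`-groups on almost all of `α`.
-/

set_option autoImplicit false

namespace Cfsg.Agent.H63.Hall

open Equiv Equiv.Perm

/-- A Hall π-subgroup contains a conjugate of every p-subgroup, `p ∈ π`. -/
theorem exists_conj_le_hall {G : Type*} [Group G] [Finite G] {π : Set ℕ} {H : Subgroup G}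
    (hH : Cfsg.IsPiHall π H) {p : ℕ} (hp : p.Prime) (hpπ : p ∈ π) {R : Subgroup G}
    (hR : IsPGroup p R) : ∃ g : G, ∀ x ∈ R, g * x * g⁻¹ ∈ H := by
  haveI : Fact p.Prime := ⟨hp⟩
  obtain ⟨P⟩ := (inferInstance : Nonempty (Sylow p H))
  obtain ⟨Q, hQ⟩ := (P.isPGroup'.map H.subtype).exists_le_sylow
  have hle : (P : Subgroup H).map H.subtype ≤ H := Subgroup.map_subtype_le _
  have heq : (P : Subgroup H).map H.subtype = (Q : Subgroup G) := by
    refine Subgroup.eq_of_le_of_card_ge hQ ?_
    rw [← Nat.card_congr (Subgroup.equivMapOfInjective _ _ H.subtype_injective).toEquiv,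
      Sylow.card_eq_multiplicity P, Sylow.card_eq_multiplicity Q, ← H.card_mul_index,
      Nat.factorization_mul Nat.card_pos.ne' Subgroup.FiniteIndex.index_ne_zero, Finsupp.add_apply,
      Nat.factorization_eq_zero_of_not_dvd (hH.2 p hp hpπ), add_zero]
  obtain ⟨R', hR'⟩ := hR.exists_le_sylow
  obtain ⟨g, hg⟩ := MulAction.exists_smul_eq G R' Q
  refine ⟨g, fun x hx => hle (heq ▸ ?_)⟩
  rw [← hg]
  exact ⟨x, hR' hx, rfl⟩

variable {α : Type*} [Fintype α] [DecidableEq α]

/-- Hall π-subgroups of `Alt(α)`, seen inside `Perm α`. -/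
abbrev HallAlt (π : Set ℕ) (M : Subgroup (Perm α)) : Prop :=
  Cfsg.IsPiHallOf π M (alternatingGroup α)

theorem isPiHall_subgroupOf {π : Set ℕ} {M : Subgroup (Perm α)} (hM : HallAlt π M) :
    Cfsg.IsPiHall π (M.subgroupOf (alternatingGroup α)) := by
  refine ⟨fun p hp hd => hM.2.1 p hp ?_, fun p hp hpπ hd => hM.2.2 p hp hpπ hd⟩
  rwa [Nat.card_congr (Subgroup.subgroupOfEquivOfLe hM.1).toEquiv] at hd

theorem conj_viaEmbedding {G : Type*} (g : Perm α) (σ : Perm G) (e : G ↪ α) :
    g * σ.viaEmbedding e * g⁻¹ = σ.viaEmbedding (e.trans g.toEmbedding) := by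
  ext z
  by_cases hz : z ∈ Set.range (e.trans g.toEmbedding)
  · obtain ⟨x, rfl⟩ := hz
    rw [viaEmbedding_apply]
    simp [viaEmbedding_apply]
  · rw [viaEmbedding_apply_of_notMem _ _ _ hz]
    have : g⁻¹ z ∉ Set.range e := fun ⟨x, hx⟩ => hz ⟨x, by simp [hx]⟩
    rw [Perm.mul_apply, Perm.mul_apply, viaEmbedding_apply_of_notMem _ _ _ this]
    simp

/-- The blockwise left translations of `Fin k × G`. -/
def blockShift (k : ℕ) (G : Type*) [Group G] : (Fin k → G) →* Perm (Fin k × G) where
  toFun f := Equiv.prodCongrRight fun i => Equiv.mulLeft (f i)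
  map_one' := by ext x <;> simp
  map_mul' f f' := by ext x <;> simp [mul_assoc]

/-- Conjugates of a regular `p`-group cover almost all points. -/
theorem exists_regular_cover {π : Set ℕ} {M : Subgroup (Perm α)} (hM : HallAlt π M) {p : ℕ}
    (hp : p.Prime) (hpπ : p ∈ π) (G : Type*) [Group G] [Fintype G] [DecidableEq G]
    (hG : IsPGroup p G) (heven : ∀ v : G, sign (Equiv.mulLeft v : Perm G) = 1) :
    ∃ U : Finset α, U.card = Fintype.card G * (Fintype.card α / Fintype.card G) ∧
      ∀ a ∈ U, ∃ e : G ↪ α, a ∈ Set.range e ∧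
        ∀ v : G, (Equiv.mulLeft v : Perm G).viaEmbedding e ∈ M := by
  classical
  haveI : Fact p.Prime := ⟨hp⟩
  set d := Fintype.card G with hd
  set k := Fintype.card α / d with hk
  obtain ⟨e⟩ : Nonempty (Fin k × G ↪ α) := Function.Embedding.nonempty_of_card_le (by
    rw [Fintype.card_prod, Fintype.card_fin]
    exact Nat.div_mul_le_self _ _)
  let Φ : (Fin k → G) →* Perm α := (Perm.viaEmbeddingHom e).comp (blockShift k G)
  have hΦ : ∀ f, Φ f ∈ alternatingGroup α := fun f => by
    rw [mem_alternatingGroup]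
    change sign ((blockShift k G f).viaEmbedding e) = 1
    rw [Perm.viaEmbedding, sign_extendDomain]
    change sign (Equiv.prodCongrRight fun i => Equiv.mulLeft (f i)) = 1
    rw [sign_prodCongrRight]
    exact Finset.prod_eq_one fun i _ => heven _
  have hpg : IsPGroup p (Φ.codRestrict (alternatingGroup α) hΦ).range := by
    obtain ⟨m, hm⟩ := IsPGroup.iff_card.1 hG
    refine (IsPGroup.of_card (p := p) (n := m * k) ?_).of_surjective _
      (Φ.codRestrict (alternatingGroup α) hΦ).rangeRestrict_surjective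
    rw [Nat.card_fun, Nat.card_fin, hm, pow_mul]
  obtain ⟨g, hg⟩ := exists_conj_le_hall (isPiHall_subgroupOf hM) hp hpπ hpg
  refine ⟨Finset.univ.map (e.trans (g : Perm α).toEmbedding), ?_, fun a ha => ?_⟩
  · rw [Finset.card_map, Finset.card_univ, Fintype.card_prod, Fintype.card_fin, mul_comm]
  obtain ⟨⟨i, x⟩, -, rfl⟩ := Finset.mem_map.1 ha
  let ei : G ↪ Fin k × G := ⟨fun y => (i, y), fun y z h => by simpa using h⟩
  refine ⟨ei.trans (e.trans (g : Perm α).toEmbedding), ⟨x, rfl⟩, fun v => ?_⟩
  have h1 := hg _ ⟨Pi.mulSingle i v, rfl⟩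
  rw [Subgroup.mem_subgroupOf] at h1
  change (g : Perm α) * Φ (Pi.mulSingle i v) * (g : Perm α)⁻¹ ∈ M at h1
  have h2 : Φ (Pi.mulSingle i v) = (Equiv.mulLeft v).viaEmbedding (ei.trans e) := by
    have hblk : blockShift k G (Pi.mulSingle i v) = (Equiv.mulLeft v).viaEmbedding ei := by
      refine Equiv.ext fun z => ?_
      obtain ⟨j, y⟩ := z
      rcases eq_or_ne j i with rfl | hj
      · rw [show ((j, y) : Fin k × G) = ei y from rfl, viaEmbedding_apply]
        change (Equiv.prodCongrRight fun i => Equiv.mulLeft (Pi.mulSingle (M := fun _ => G) j v i)) (j, y)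
          = (j, v * y)
        simp
      · rw [viaEmbedding_apply_of_notMem]
        · simp [blockShift, Pi.mulSingle_eq_of_ne hj]
        · rintro ⟨w, hw⟩; exact hj (congrArg Prod.fst hw).symm
    refine Equiv.ext fun z => ?_
    change (blockShift k G (Pi.mulSingle i v)).viaEmbedding e z = _
    rw [hblk]
    by_cases hz : z ∈ Set.range e
    · obtain ⟨w, rfl⟩ := hz
      rw [viaEmbedding_apply]
      by_cases hw : w ∈ Set.range ei
      · obtain ⟨y, rfl⟩ := hw
        rw [viaEmbedding_apply, show e (ei y) = (ei.trans e) y from rfl, viaEmbedding_apply]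
        rfl
      · rw [viaEmbedding_apply_of_notMem _ _ _ hw, viaEmbedding_apply_of_notMem]
        rintro ⟨y, hy⟩; exact hw ⟨y, e.injective hy⟩
    · rw [viaEmbedding_apply_of_notMem _ _ _ hz, viaEmbedding_apply_of_notMem]
      rintro ⟨y, hy⟩; exact hz ⟨ei y, hy⟩
  rw [h2, conj_viaEmbedding] at h1
  exact h1

theorem sign_eq_one_of_pow {β : Type*} [Fintype β] [DecidableEq β] {σ : Perm β} {m : ℕ}
    (hm : Odd m) (h : σ ^ m = 1) : sign σ = 1 := by
  rcases Int.units_eq_one_or (sign σ) with hs | hs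
  · exact hs
  · have := congrArg sign h
    rw [map_pow, map_one, hs, hm.neg_one_pow] at this
    exact absurd this (by decide)

/-- For an odd prime `p ∈ π`, the `p`-cycles in `M` cover all but fewer than `p` points. -/
theorem exists_cycle_cover {π : Set ℕ} {M : Subgroup (Perm α)} (hM : HallAlt π M) {p : ℕ}
    (hp : p.Prime) (hp2 : p ≠ 2) (hpπ : p ∈ π) :
    ∃ U : Finset α, U.card = p * (Fintype.card α / p) ∧
      ∀ a ∈ U, ∃ y ∈ M, y.IsCycle ∧ y.support.card = p ∧ a ∈ y.support := by
  classical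
  haveI : NeZero p := ⟨hp.ne_zero⟩
  haveI : Fact p.Prime := ⟨hp⟩
  have hcard : Fintype.card (Multiplicative (ZMod p)) = p := by simp
  have hpow : ∀ v : Multiplicative (ZMod p), v ^ p = 1 := fun v => by
    have := pow_card_eq_one (x := v)
    rwa [hcard] at this
  obtain ⟨U, hU, hUy⟩ := exists_regular_cover hM hp hpπ (Multiplicative (ZMod p))
    (IsPGroup.of_card (n := 1) (by rw [Nat.card_eq_fintype_card, hcard, pow_one]))
    (fun v => sign_eq_one_of_pow (hp.odd_of_ne_two hp2) (by
      ext x; simp [Equiv.pow_mulLeft, hpow]))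
  refine ⟨U, by rw [hU, hcard], fun a ha => ?_⟩
  obtain ⟨e, ⟨x, rfl⟩, he⟩ := hUy a ha
  set v : Multiplicative (ZMod p) := Multiplicative.ofAdd 1 with hv
  have hv1 : v ≠ 1 := by simp [hv]
  set y := (Equiv.mulLeft v).viaEmbedding e with hy
  have hsupp : y.support = Finset.univ.map e := by
    ext z
    rw [mem_support, Finset.mem_map]
    constructor
    · intro hz
      by_contra hc
      exact hz (viaEmbedding_apply_of_notMem _ _ _ fun ⟨w, hw⟩ => hc ⟨w, Finset.mem_univ _, hw⟩)
    · rintro ⟨w, -, rfl⟩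
      rw [hy, viaEmbedding_apply]
      simpa using hv1
  have hsc : y.support.card = p := by rw [hsupp, Finset.card_map, Finset.card_univ, hcard]
  have hy1 : y ≠ 1 := fun h => by
    rw [h, support_one, Finset.card_empty] at hsc; exact hp.ne_zero hsc.symm
  have hord : orderOf y = p := by
    refine orderOf_eq_prime ?_ hy1
    rw [hy, ← viaEmbeddingHom_apply, ← map_pow]
    convert map_one (Perm.viaEmbeddingHom e)
    ext w; simp [Equiv.pow_mulLeft, hpow]
  exact ⟨y, he v, isCycle_of_prime_order (hord ▸ hp) (by rw [hord, hsc]; have := hp.pos; omega),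
    hsc, by rw [hsupp]; simp⟩

/-- Powers of a prime cycle: a block meeting the support contains it or is a point. -/
theorem cycle_block {β : Type*} [Fintype β] [DecidableEq β] {y : Perm β} (hy : y.IsCycle)
    (hq : y.support.card.Prime) {B : Set β}
    (hB : ∀ i : ℕ, (y ^ i) '' B = B ∨ Disjoint ((y ^ i) '' B) B)
    {a : β} (haB : a ∈ B) (ha : a ∈ y.support) : (↑y.support ⊆ B) ∨ B = {a} := by
  classical
  rcases hB 1 with h1 | h1
  · left
    rw [pow_one] at h1
    intro b hb
    obtain ⟨i, hi⟩ := hy.exists_pow_eq (mem_support.1 ha) (mem_support.1 hb)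
    have hinv : ∀ i : ℕ, ∀ z ∈ B, (y ^ i) z ∈ B := by
      intro i
      induction i with
      | zero => simp
      | succ i ih =>
        intro z hz
        rw [pow_succ', Perm.mul_apply]
        exact h1 ▸ Set.mem_image_of_mem y (ih z hz)
    exact hi ▸ hinv i a haB
  · right
    rw [pow_one] at h1
    refine Set.eq_singleton_iff_unique_mem.2 ⟨haB, fun b hb => ?_⟩
    by_contra hne
    have hbs : b ∈ y.support := mem_support.2 fun hfix =>
      Set.disjoint_left.1 h1 ⟨b, hb, hfix⟩ hb
    obtain ⟨i, hi⟩ := hy.exists_pow_eq (mem_support.1 ha) (mem_support.1 hbs)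
    have hiB : (y ^ i) '' B = B := (hB i).resolve_right fun h =>
      Set.disjoint_left.1 h ⟨a, haB, hi⟩ hb
    have hqi : ¬ y.support.card ∣ i := by
      rintro ⟨t, rfl⟩
      rw [← hy.orderOf, pow_mul, pow_orderOf_eq_one, one_pow, Perm.one_apply] at hi
      exact hne hi.symm
    obtain ⟨j, hj⟩ := exists_pow_eq_self_of_coprime (x := y) (n := i)
      (by rw [hy.orderOf]; exact ((hq.coprime_iff_not_dvd).2 hqi).symm)
    have hjB : ∀ j : ℕ, ((y ^ i) ^ j) '' B = B := by
      intro j
      induction j with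
      | zero => simp
      | succ j ih => rw [pow_succ', Perm.coe_mul, Set.image_comp, ih, hiB]
    have := hjB j
    rw [hj] at this
    exact Set.disjoint_left.1 h1 (this.symm ▸ haB : a ∈ y '' B) haB

/-- Lift a prime cycle to a subtype containing its support. -/
theorem cycle_lift {y : Perm α} (hy : y.IsCycle) (hq : y.support.card.Prime) {T : Finset α}
    (hT : y.support ⊆ T) :
    ∃ y' : Perm ↥T, Perm.ofSubtype y' = y ∧ y'.IsCycle ∧ y'.support.card = y.support.card ∧
      ∀ z : ↥T, z ∈ y'.support ↔ (z : α) ∈ y.support := by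
  have hmem : ∀ x, y x ≠ x → x ∈ T := fun x hx => hT (mem_support.2 hx)
  have h1 : ∀ x, y x ∈ T ↔ x ∈ T := by
    intro x
    by_cases hx : y x = x
    · rw [hx]
    · exact ⟨fun _ => hmem x hx, fun _ => hmem _ fun h => hx (y.injective h)⟩
  set y' : Perm ↥T := y.subtypePerm h1 with hy'
  have he : Perm.ofSubtype y' = y := ofSubtype_subtypePerm h1 hmem
  have hz : ∀ z : ↥T, z ∈ y'.support ↔ (z : α) ∈ y.support := by
    intro z
    simp [hy', mem_support, Subtype.ext_iff]
  have hc : y'.support.card = y.support.card := by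
    rw [← Finset.card_map (Function.Embedding.subtype (· ∈ T))]
    congr 1
    ext x
    simp only [Finset.mem_map, Function.Embedding.coe_subtype]
    exact ⟨fun ⟨z, hz', h⟩ => h ▸ (hz z).1 hz', fun hx => ⟨⟨x, hT hx⟩, (hz ⟨x, hT hx⟩).2 hx, rfl⟩⟩
  have ho : orderOf y' = y.support.card := by
    rw [← hy.orderOf, ← orderOf_injective _ ofSubtype_injective y', he]
  exact ⟨y', he, isCycle_of_prime_order (ho ▸ hq) (by rw [ho, hc]; have := hq.pos; omega), hc, hz⟩

/-- A transitive group on fewer than `2q` points containing a `q`-cycle is primitive. -/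
theorem isPreprimitive_of_cycle {β : Type*} [Fintype β] [DecidableEq β] {L : Subgroup (Perm β)}
    [MulAction.IsPretransitive L β] {y : Perm β} (hyL : y ∈ L) (hy : y.IsCycle)
    (hq : y.support.card.Prime) (hlt : Fintype.card β < 2 * y.support.card) :
    MulAction.IsPreprimitive L β := by
  classical
  obtain ⟨a, ha⟩ := Finset.card_pos.1 hq.pos
  refine MulAction.IsPreprimitive.of_isTrivialBlock_base a fun {B} haB hB => ?_
  have hblk : ∀ i : ℕ, (y ^ i) '' B = B ∨ Disjoint ((y ^ i) '' B) B := fun i =>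
    MulAction.isBlock_iff_smul_eq_or_disjoint.1 hB (⟨y, hyL⟩ ^ i : L)
  rcases cycle_block hy hq hblk haB ha with h | h
  · right
    refine hB.eq_univ_of_card_lt ?_
    have := Set.ncard_le_ncard h (Set.toFinite B)
    rw [Set.ncard_coe_finset] at this
    rw [Nat.card_eq_fintype_card]
    omega
  · left
    rw [h]; exact Set.subsingleton_singleton

/-- Two cycles with meeting supports act transitively on the union of the supports. -/
theorem isPretransitive_of_two_cycles {β : Type*} [Fintype β] [DecidableEq β]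
    {L : Subgroup (Perm β)} {x y : Perm β} (hxL : x ∈ L) (hyL : y ∈ L) (hx : x.IsCycle)
    (hy : y.IsCycle) {a : β} (hax : a ∈ x.support) (hay : a ∈ y.support)
    (hcov : ∀ z, z ∈ x.support ∨ z ∈ y.support) : MulAction.IsPretransitive L β := by
  have key : ∀ z, ∃ g : L, g • a = z := by
    intro z
    rcases hcov z with h | h
    · obtain ⟨i, hi⟩ := hx.exists_pow_eq (mem_support.1 hax) (mem_support.1 h)
      exact ⟨⟨x, hxL⟩ ^ i, hi⟩
    · obtain ⟨i, hi⟩ := hy.exists_pow_eq (mem_support.1 hay) (mem_support.1 h)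
      exact ⟨⟨y, hyL⟩ ^ i, hi⟩
  refine ⟨fun u v => ?_⟩
  obtain ⟨g, rfl⟩ := key u
  obtain ⟨h, rfl⟩ := key v
  exact ⟨h * g⁻¹, by rw [mul_smul, inv_smul_smul]⟩

/-- A two-transitive group has even order. -/
theorem two_dvd_card_of_two_pretransitive {β : Type*} [Fintype β] {L : Subgroup (Perm β)}
    (h : MulAction.IsMultiplyPretransitive L β 2) (hβ : 2 ≤ Fintype.card β) :
    2 ∣ Nat.card L := by
  obtain ⟨u, v, huv⟩ := Fintype.exists_pair_of_one_lt_card (α := β) (by omega)
  rw [MulAction.is_two_pretransitive_iff] at h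
  obtain ⟨g, hgu, hgv⟩ := h huv huv.symm
  refine dvd_trans ?_ (orderOf_dvd_natCard g)
  by_contra hodd
  have h1 : ∀ m : ℕ, g ^ (2 * m + 1) • u = v := by
    intro m
    induction m with
    | zero => simpa using hgu
    | succ m ih =>
      rw [show 2 * (m + 1) + 1 = 1 + (1 + (2 * m + 1)) by ring, pow_add, pow_add, pow_one,
        mul_smul, mul_smul, ih, hgv, hgu]
  have h3 := h1 (orderOf g / 2)
  rw [show 2 * (orderOf g / 2) + 1 = orderOf g by omega, pow_orderOf_eq_one, one_smul] at h3
  exact huv h3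

/-- Meeting cycles of two different prime lengths force even order. -/
theorem two_dvd_card_of_cycles {M : Subgroup (Perm α)} {x y : Perm α} (hxM : x ∈ M) (hyM : y ∈ M)
    (hx : x.IsCycle) (hy : y.IsCycle) (hp : x.support.card.Prime) (hq : y.support.card.Prime)
    (hlt : x.support.card < y.support.card) {a : α} (hax : a ∈ x.support) (hay : a ∈ y.support) :
    2 ∣ Nat.card M := by
  classical
  set T := x.support ∪ y.support with hT
  have hTc : T.card < 2 * y.support.card := by
    have := Finset.card_union_le x.support y.support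
    rw [← hT] at this; omega
  have hTy : y.support.card ≤ T.card := Finset.card_le_card Finset.subset_union_right
  obtain ⟨x', hxe, hxc, hxs, hxz⟩ := cycle_lift hx hp (T := T) Finset.subset_union_left
  obtain ⟨y', hye, hyc, hys, hyz⟩ := cycle_lift hy hq (T := T) Finset.subset_union_right
  set L : Subgroup (Perm ↥T) := M.comap Perm.ofSubtype with hL
  have hxL : x' ∈ L := Subgroup.mem_comap.2 (hxe ▸ hxM)
  have hyL : y' ∈ L := Subgroup.mem_comap.2 (hye ▸ hyM)
  haveI := isPretransitive_of_two_cycles hxL hyL hxc hyc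
    (a := ⟨a, Finset.mem_union_left _ hax⟩) ((hxz _).2 hax) ((hyz _).2 hay)
    (fun z => (Finset.mem_union.1 z.2).imp (hxz z).2 (hyz z).2)
  have hprim := isPreprimitive_of_cycle hyL hyc (hys ▸ hq) (by rw [Fintype.card_coe, hys]; omega)
  have hp2 := hp.two_le
  have h2 : MulAction.IsMultiplyPretransitive L ↥T 2 := by
    refine hprim.is_two_pretransitive (s := (↑x'.support : Set ↥T)ᶜ)
      (n := T.card - x.support.card - 1) ?_ ?_ (isPretransitive_of_isCycle_mem hxc hxL)
    · rw [Set.ncard_compl, Set.ncard_coe_finset, hxs, Nat.card_eq_fintype_card, Fintype.card_coe]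
      omega
    · rw [Nat.card_eq_fintype_card, Fintype.card_coe]; omega
  exact (two_dvd_card_of_two_pretransitive h2 (by rw [Fintype.card_coe]; omega)).trans
    (Subgroup.card_comap_dvd_of_injective M _ ofSubtype_injective)

/-- Hall π-subgroups of alternating groups: no two odd primes of π `≤ n` without `2`. -/
theorem two_mem_of_two_odd {π : Set ℕ} {M : Subgroup (Perm α)} (hM : HallAlt π M) {p q : ℕ}
    (hp : p.Prime) (hq : q.Prime) (hp2 : p ≠ 2) (hq2 : q ≠ 2) (hpq : p < q)
    (hpπ : p ∈ π) (hqπ : q ∈ π) (hqn : q ≤ Fintype.card α) : 2 ∈ π := by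
  classical
  obtain ⟨U, hU, hUx⟩ := exists_cycle_cover hM hp hp2 hpπ
  obtain ⟨V, hV, hVy⟩ := exists_cycle_cover hM hq hq2 hqπ
  have big : ∀ r, r ≤ Fintype.card α → 0 < r → Fintype.card α < 2 * (r * (Fintype.card α / r)) := by
    intro r hr hr0
    have h1 := Nat.div_add_mod (Fintype.card α) r
    have h2 := Nat.mod_lt (Fintype.card α) hr0
    have h3 : r * 1 ≤ r * (Fintype.card α / r) :=
      Nat.mul_le_mul_left r ((Nat.one_le_div_iff hr0).2 hr)
    omega
  obtain ⟨a, ha⟩ : (U ∩ V).Nonempty := by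
    rw [← Finset.card_pos]
    have := Finset.card_union_add_card_inter U V
    have := Finset.card_le_univ (U ∪ V)
    have := big p (by omega) hp.pos
    have := big q hqn hq.pos
    omega
  obtain ⟨x, hxM, hx, hxc, hax⟩ := hUx a (Finset.mem_inter.1 ha).1
  obtain ⟨y, hyM, hy, hyc, hay⟩ := hVy a (Finset.mem_inter.1 ha).2
  exact hM.2.1 2 Nat.prime_two (two_dvd_card_of_cycles hxM hyM hx hy (hxc ▸ hp) (hyc ▸ hq)
    (by omega) hax hay)

/-- The Klein four-group. -/
abbrev V4 : Type := Multiplicative (ZMod 2 × ZMod 2)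

theorem V4_cases : ∀ v : V4, v * v = 1 := by decide

theorem V4_sign : ∀ v : V4, sign (Equiv.mulLeft v : Perm V4) = 1 := by decide

/-- Two meeting, distinct regular Klein four-groups in `M` give an element of order divisible
by `3`. -/
theorem three_dvd_of_klein {M : Subgroup (Perm α)} {e f : V4 ↪ α}
    (he : ∀ v : V4, (Equiv.mulLeft v : Perm V4).viaEmbedding e ∈ M)
    (hf : ∀ v : V4, (Equiv.mulLeft v : Perm V4).viaEmbedding f ∈ M)
    {a : α} (hae : a ∈ Set.range e) (haf : a ∈ Set.range f) (hne : Set.range e ≠ Set.range f) :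
    3 ∣ Nat.card M := by
  classical
  have hcard : (Set.range e).ncard = (Set.range f).ncard := by
    rw [Set.ncard_range_of_injective e.injective, Set.ncard_range_of_injective f.injective]
  obtain ⟨c, hce, hcf⟩ : ∃ c ∈ Set.range e, c ∉ Set.range f := Set.not_subset.1 fun h =>
    hne (Set.eq_of_subset_of_ncard_le h hcard.ge (Set.toFinite _))
  obtain ⟨d, hdf, hde⟩ : ∃ d ∈ Set.range f, d ∉ Set.range e := Set.not_subset.1 fun h =>
    hne (Set.eq_of_subset_of_ncard_le h hcard.le (Set.toFinite _)).symm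
  have mk : ∀ (g : V4 ↪ α), ∀ u ∈ Set.range g, ∀ w ∈ Set.range g, ∃ v : V4,
      (Equiv.mulLeft v).viaEmbedding g u = w ∧ (Equiv.mulLeft v).viaEmbedding g w = u := by
    rintro g _ ⟨h, rfl⟩ _ ⟨k, rfl⟩
    refine ⟨k * h⁻¹, ?_, ?_⟩
    · rw [viaEmbedding_apply]; simp
    · rw [viaEmbedding_apply]
      congr 1
      revert h k; decide
  obtain ⟨v, hvac, hvca⟩ := mk e a hae c hce
  obtain ⟨w, hwad, hwda⟩ := mk f a haf d hdf
  set s := (Equiv.mulLeft v).viaEmbedding e with hs
  set t := (Equiv.mulLeft w).viaEmbedding f with ht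
  have hsd : s d = d := viaEmbedding_apply_of_notMem _ _ _ hde
  have htc : t c = c := viaEmbedding_apply_of_notMem _ _ _ hcf
  have h1 : (s * t) a = d := by rw [Perm.mul_apply, hwad, hsd]
  have h2 : (s * t) d = c := by rw [Perm.mul_apply, hwda, hvac]
  have h3 : (s * t) c = a := by rw [Perm.mul_apply, htc, hvca]
  have hd3 : 3 ∣ orderOf (s * t) := by
    have hper : ∀ k, ((s * t) ^ (3 * k)) a = a := by
      intro k
      induction k with
      | zero => simp
      | succ k ih =>
        have hstep : ∀ m, ((s * t) ^ (m + 1)) a = (s * t) (((s * t) ^ m) a) := fun m => by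
          rw [pow_succ']; rfl
        rw [show 3 * (k + 1) = 3 * k + 1 + 1 + 1 by ring, hstep, hstep, hstep, ih, h1, h2, h3]
    have h := congrArg (fun g : Perm α => g a) (pow_orderOf_eq_one (s * t))
    simp only [Perm.one_apply] at h
    rw [← Nat.mod_add_div (orderOf (s * t)) 3, pow_add, Perm.mul_apply, hper] at h
    have hlt := Nat.mod_lt (orderOf (s * t)) (show 0 < 3 by norm_num)
    interval_cases hm : orderOf (s * t) % 3
    · exact Nat.dvd_of_mod_eq_zero hm
    · rw [pow_one, h1] at h; exact absurd (h ▸ hae) hde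
    · rw [pow_succ', pow_one, Perm.mul_apply, h1, h2] at h; exact absurd (h ▸ haf) hcf
  have hmem : s * t ∈ M := M.mul_mem (he v) (hf w)
  refine hd3.trans ?_
  rw [← Subgroup.orderOf_mk (s * t) hmem]
  exact orderOf_dvd_natCard _

/-- If `2` and some odd prime `≤ n` are in π, so is `3`. -/
theorem three_mem_of_two_mem {π : Set ℕ} {M : Subgroup (Perm α)} (hM : HallAlt π M)
    (h2 : 2 ∈ π) {q : ℕ} (hq : q.Prime) (hq2 : q ≠ 2) (hqπ : q ∈ π)
    (hqn : q ≤ Fintype.card α) : 3 ∈ π := by
  classical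
  rcases eq_or_ne q 3 with rfl | hq3
  · exact hqπ
  have hq5 : 5 ≤ q := by
    by_contra hlt
    have := hq.two_le
    interval_cases q <;> norm_num at *
  have hV4 : Fintype.card V4 = 4 := by decide
  obtain ⟨U, hU, hUe⟩ := exists_regular_cover hM Nat.prime_two h2 V4
    (IsPGroup.of_card (n := 2) (by rw [Nat.card_eq_fintype_card, hV4]; norm_num)) V4_sign
  obtain ⟨W, hW, hWy⟩ := exists_cycle_cover hM hq hq2 hqπ
  obtain ⟨a, ha⟩ : (U ∩ W).Nonempty := by
    rw [← Finset.card_pos]
    have := Finset.card_union_add_card_inter U W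
    have := Finset.card_le_univ (U ∪ W)
    rw [hV4] at hU
    have : q * 1 ≤ q * (Fintype.card α / q) :=
      Nat.mul_le_mul_left q ((Nat.one_le_div_iff hq.pos).2 hqn)
    omega
  obtain ⟨e, hae, he⟩ := hUe a (Finset.mem_inter.1 ha).1
  obtain ⟨y, hyM, hy, hyc, hay⟩ := hWy a (Finset.mem_inter.1 ha).2
  by_contra h3
  have hblk : ∀ i : ℕ, (y ^ i) '' Set.range e = Set.range e ∨
      Disjoint ((y ^ i) '' Set.range e) (Set.range e) := by
    intro i
    by_contra hc
    push Not at hc
    obtain ⟨hne, hmeet⟩ := hc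
    obtain ⟨z, hz1, hz2⟩ := Set.not_disjoint_iff.1 hmeet
    refine h3 (hM.2.1 3 Nat.prime_three (three_dvd_of_klein (e := e.trans (y ^ i).toEmbedding)
      (f := e) (fun v => ?_) he ?_ hz2 ?_))
    · rw [← conj_viaEmbedding]
      exact M.mul_mem (M.mul_mem (M.pow_mem hyM i) (he v)) (M.inv_mem (M.pow_mem hyM i))
    · rwa [← Set.range_comp] at hz1
    · rwa [← Set.range_comp] at hne
  have h4 : (Set.range e).ncard = 4 := by
    rw [Set.ncard_range_of_injective e.injective, Nat.card_eq_fintype_card, hV4]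
  rcases cycle_block hy (hyc ▸ hq) hblk hae hay with h | h
  · have := Set.ncard_le_ncard h (Set.toFinite _)
    rw [Set.ncard_coe_finset, h4, hyc] at this
    omega
  · rw [h, Set.ncard_singleton] at h4; omega

end Cfsg.Agent.H63.Hall
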