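import Mathlib

/-!
# Binomial coefficients without small prime factors

The arithmetic behind the classification of the Hall subgroups of the symmetric groups: if every
prime factor of `C(a + b, b)` exceeds `a ≥ b`, then `b = 1` or `(a, b) = (4, 3)`.
-/

set_option autoImplicit false

namespace Cfsg.Agent.H63.Hall

open Nat

/-- Every prime factor of `N` exceeds `a`. -/
def Rough (a N : ℕ) : Prop := ∀ p : ℕ, p.Prime → p ∣ N → a < p

theorem Rough.of_dvd {a M N : ℕ} (h : Rough a N) (hd : M ∣ N) : Rough a M :=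
  fun p hp hpM => h p hp (hpM.trans hd)

theorem Rough.coprime {a N m : ℕ} (h : Rough a N) (hm : ∀ p, p.Prime → p ∣ m → p ≤ a) :
    N.Coprime m :=
  Nat.coprime_of_dvd fun p hp hN hm' => (h p hp hN).not_ge (hm p hp hm')

theorem le_half_of_dvd_not_prime {m p : ℕ} (hm : 0 < m) (hnp : ¬ m.Prime) (hp : p.Prime)
    (hd : p ∣ m) : 2 * p ≤ m := by
  obtain ⟨k, rfl⟩ := hd
  rcases Nat.lt_or_ge k 2 with h | h
  · interval_cases k
    · simp at hm
    · rw [mul_one] at hnp; exact absurd hp hnp
  · nlinarith [hp.pos]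

theorem two_dvd_centralHalf : ∀ c : ℕ, 0 < c → (∀ i, c ≠ 2 ^ i) → 2 ∣ (2 * c - 1).choose (c - 1) := by
  intro c
  induction c using Nat.strong_induction_on with
  | _ c ih =>
    intro hc0 hpow
    haveI : Fact (Nat.Prime 2) := ⟨Nat.prime_two⟩
    have hlu := Choose.choose_modEq_choose_mod_mul_choose_div_nat (p := 2) (n := 2 * c - 1)
      (k := c - 1)
    have h1 : (2 * c - 1) % 2 = 1 := by omega
    have h2 : (2 * c - 1) / 2 = c - 1 := by omega
    rw [h1, h2] at hlu
    rcases Nat.even_or_odd' c with ⟨d, rfl | rfl⟩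
    · have h3 : (2 * d - 1) % 2 = 1 := by omega
      have h4 : (2 * d - 1) / 2 = d - 1 := by omega
      rw [h3, h4, choose_self, one_mul] at hlu
      refine (Nat.modEq_zero_iff_dvd.1 (hlu.trans (Nat.modEq_zero_iff_dvd.2 ?_)))
      exact ih d (by omega) (by omega) fun i hi => hpow (i + 1) (by rw [hi]; ring)
    · have hd : 0 < d := by
        rcases Nat.eq_zero_or_pos d with rfl | h
        · exact absurd rfl (hpow 0)
        · exact h
      have h3 : (2 * d + 1 - 1) % 2 = 0 := by omega
      have h4 : (2 * d + 1 - 1) / 2 = d := by omega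
      rw [h3, h4, choose_zero_right, one_mul, show 2 * d + 1 - 1 = 2 * d by omega] at hlu
      refine (Nat.modEq_zero_iff_dvd.1 (hlu.trans (Nat.modEq_zero_iff_dvd.2 ?_)))
      exact Nat.two_dvd_centralBinom_of_one_le hd

theorem two_pow_add_one_ne_three_pow {j e : ℕ} (hj : 4 ≤ j) : 2 ^ j + 1 ≠ 3 ^ e := by
  intro h
  obtain ⟨r, rfl⟩ := Nat.exists_eq_add_of_le hj
  have h16 : 3 ^ e % 16 = 1 := by
    rw [← h, pow_add]; omega
  have h4 : e % 4 = 0 := by
    have := Nat.div_add_mod e 4
    rw [← this, pow_add, pow_mul, Nat.mul_mod, Nat.pow_mod, show (3 ^ 4 % 16) = 1 by norm_num,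
      one_pow] at h16
    have : e % 4 < 4 := Nat.mod_lt _ (by norm_num)
    interval_cases h' : e % 4 <;> simp_all
  obtain ⟨f, rfl⟩ := Nat.dvd_of_mod_eq_zero h4
  have h5 : 3 ^ (4 * f) % 5 = 1 := by rw [pow_mul, Nat.pow_mod]; norm_num
  have h6 : 5 ∣ 2 ^ (4 + r) := by omega
  have := Nat.prime_two.eq_one_or_self_of_dvd 5
  exact absurd (((Nat.prime_five).dvd_of_dvd_pow h6)) (by norm_num)

/-- The only `c ≥ 3` such that all prime factors of `C(2c-1, c-1)` exceed `c` is `4`. -/
theorem centralHalf_rough {c : ℕ} (hc : 3 ≤ c) (h : Rough c ((2 * c - 1).choose (c - 1))) :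
    c = 4 := by
  have hpow : ∃ i, c = 2 ^ i := by
    by_contra hne
    push Not at hne
    exact absurd (h 2 Nat.prime_two (two_dvd_centralHalf c (by omega) hne)) (by omega)
  obtain ⟨i, rfl⟩ := hpow
  rcases Nat.lt_or_ge i 3 with hi | hi
  · interval_cases i <;> simp_all
  exfalso
  set c := 2 ^ i with hcdef
  set C := (2 * c - 1).choose (c - 1) with hC
  have hC2 : (2 * c).choose c = 2 * C := by
    have := Nat.add_one_mul_choose_eq (2 * c - 1) (c - 1)
    rw [show 2 * c - 1 + 1 = 2 * c by omega, show c - 1 + 1 = c by omega] at this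
    have h' : c * (2 * C) = c * (2 * c).choose c := by rw [hC]; linarith
    exact (Nat.eq_of_mul_eq_mul_left (by omega) h').symm
  have hodd : ∀ p, p.Prime → p ≠ 2 → p ∣ (2 * c).choose c → c < p := fun p hp hp2 hd => by
    rw [hC2] at hd
    rcases hp.dvd_mul.1 hd with h2 | h2
    · exact absurd ((Nat.prime_dvd_prime_iff_eq hp Nat.prime_two).1 h2) hp2
    · exact h p hp h2
  -- the two identities
  have e1 : (2 * c).choose c * c = (2 * c).choose (c - 1) * (c + 1) := by
    have := choose_succ_right_eq (2 * c) (c - 1)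
    rwa [show c - 1 + 1 = c by omega, show 2 * c - (c - 1) = c + 1 by omega] at this
  have e2 : (2 * c).choose (c - 1) * (c - 1) = (2 * c).choose (c - 2) * (c + 2) := by
    have := choose_succ_right_eq (2 * c) (c - 2)
    rwa [show c - 2 + 1 = c - 1 by omega, show 2 * c - (c - 2) = c + 2 by omega] at this
  have ceven : 2 ∣ c := dvd_pow_self 2 (by omega)
  -- an odd prime `≤ c` dividing `C(2c, c)`
  have key1 : ∀ p, p.Prime → p ∣ c + 1 → c < p := fun p hp hd => by
    have hp2 : p ≠ 2 := by rintro rfl; omega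
    have hpc : ¬ p ∣ c := fun h' =>
      hp.not_dvd_one ((Nat.dvd_add_right h').1 hd)
    have : p ∣ (2 * c).choose c * c := e1 ▸ hd.mul_left _
    exact hodd p hp hp2 ((hp.dvd_mul.1 this).resolve_right hpc)
  have key2 : ∀ p, p.Prime → 5 ≤ p → p ∣ c + 2 → c < p := fun p hp hp5 hd => by
    have hp2 : p ≠ 2 := by omega
    have hpc : ¬ p ∣ c := fun h' => by
      have := Nat.le_of_dvd two_pos ((Nat.dvd_add_right h').1 hd); omega
    have hpc1 : ¬ p ∣ c - 1 := fun h' => by
      have h3 : p ∣ c + 2 - (c - 1) := Nat.dvd_sub hd h'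
      have := Nat.le_of_dvd (by omega) h3; omega
    have hpc2 : ¬ p ∣ c + 1 := fun h' => by
      have := Nat.le_of_dvd one_pos ((Nat.dvd_add_right h').1 hd); omega
    have h4 : p ∣ (2 * c).choose (c - 1) * (c - 1) := e2 ▸ hd.mul_left _
    have h5 : p ∣ (2 * c).choose c * c := e1 ▸ ((hp.dvd_mul.1 h4).resolve_right hpc1).mul_right _
    exact hodd p hp hp2 ((hp.dvd_mul.1 h5).resolve_right hpc)
  rcases Nat.even_or_odd' i with ⟨d, hd | hd⟩
  · -- `i = 2 d`
    rcases Nat.eq_or_lt_of_le (show 2 ≤ d by omega) with rfl | hd3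
    · -- `c = 16`
      have hc16 : c = 16 := by rw [hcdef, hd]; norm_num
      have := h 3 Nat.prime_three (by rw [hC, hc16]; decide)
      omega
    · set m := 2 ^ (i - 1) + 1 with hm
      have hcm : c + 2 = 2 * m := by
        rw [hcdef, hm, mul_add, ← pow_succ']
        congr 2; omega
      by_cases h3 : ∀ p, p.Prime → p ∣ m → p = 3
      · have h3' := Nat.eq_prime_pow_of_unique_prime_dvd (n := m) (by omega)
          (fun {p} hp hpm => h3 p hp hpm)
        exact two_pow_add_one_ne_three_pow (by omega) (hm ▸ h3')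
      · push Not at h3
        obtain ⟨p, hp, hpm, hp3⟩ := h3
        have hp2 : p ≠ 2 := by
          rintro rfl
          have : 2 ∣ 2 ^ (i - 1) := dvd_pow_self 2 (by omega)
          omega
        have hp5 : 5 ≤ p := by
          by_contra hlt
          have := hp.two_le
          interval_cases p <;> norm_num at *
        have := key2 p hp hp5 (hcm ▸ hpm.mul_left 2)
        have := Nat.le_of_dvd (by omega) hpm
        omega
  · -- `i` odd
    have h3 : 3 ∣ c + 1 := by
      rw [hcdef, hd, pow_succ, pow_mul, Nat.dvd_iff_mod_eq_zero, Nat.add_mod, Nat.mul_mod,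
        Nat.pow_mod]
      norm_num
    have := key1 3 Nat.prime_three h3
    omega

theorem asc_two_step (x : ℕ) : ∀ k : ℕ, (2 * x + 1).ascFactorial (2 * k + 1)
    = (∏ i ∈ Finset.range (k + 1), (2 * (x + i) + 1)) * (2 ^ k * (x + 1).ascFactorial k) := by
  intro k
  induction k with
  | zero => simp [ascFactorial_succ]
  | succ k ih =>
    rw [show 2 * (k + 1) + 1 = (2 * k + 1) + 1 + 1 by ring, ascFactorial_succ, ascFactorial_succ,
      ih, Finset.prod_range_succ _ (k + 1), ascFactorial_succ, pow_succ]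
    ring

theorem two_pow_lt_factorial {m : ℕ} (hm : 0 < m) : ¬ 2 ^ m ∣ m ! := by
  intro h
  exact absurd (pow_dvd_iff_le_emultiplicity.1 h)
    (not_le.2 (emultiplicity_two_factorial_lt hm.ne'))

/-- An odd divisor of `k!` divides any product of `k` consecutive odd numbers. -/
theorem odd_dvd_prod_step_two {g k : ℕ} (hg : Odd g) (hd : g ∣ k !) (x : ℕ) :
    g ∣ ∏ i ∈ Finset.range k, (2 * (x + i) + 1) := by
  obtain ⟨t, ht⟩ := hg
  have key : ∀ j, ((∏ i ∈ Finset.range j, (2 * (x + i) + 1) : ℕ) : ZMod g)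
      = 2 ^ j * ((x + (t + 1)).ascFactorial j : ℕ) := by
    intro j
    have h2 : (2 : ZMod g) * ((t + 1 : ℕ) : ZMod g) = 1 := by
      have : ((2 * (t + 1) : ℕ) : ZMod g) = ((g + 1 : ℕ) : ZMod g) := by
        congr 1; omega
      push_cast at this
      rw [ZMod.natCast_self, zero_add] at this
      simpa using this
    induction j with
    | zero => simp
    | succ j ih =>
      rw [Finset.prod_range_succ, ascFactorial_succ, Nat.cast_mul, ih]
      push_cast at *
      linear_combination (2 ^ j * ((x + (t + 1)).ascFactorial j : ZMod g)) * (-h2)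
  rw [← ZMod.natCast_eq_zero_iff, key]
  have h0 : g ∣ (x + (t + 1)).ascFactorial k := hd.trans (factorial_dvd_ascFactorial _ _)
  rw [(ZMod.natCast_eq_zero_iff _ _).2 h0, mul_zero]

/-- The bound `a ≤ b + 1` for even `a`, odd `b`. -/
theorem rough_choose_le {x k : ℕ} (hkx : k < x) (hk : 1 ≤ k)
    (h : Rough (2 * x) ((2 * x + (2 * k + 1)).choose (2 * k + 1))) : x ≤ k + 1 := by
  set C := (2 * x + (2 * k + 1)).choose (2 * k + 1) with hC
  set g := ordCompl[2] (k + 1)! with hg
  have hgodd : Odd g := by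
    rw [Nat.odd_iff]
    have := Nat.not_dvd_ordCompl Nat.prime_two (factorial_ne_zero (k + 1))
    omega
  have hgd : g ∣ (k + 1)! := Nat.ordCompl_dvd _ 2
  set O := ∏ i ∈ Finset.range (k + 1), (2 * (x + i) + 1) with hO
  set E := 2 ^ k * (x + 1).ascFactorial k with hE
  have hOE : O * E = (2 * k + 1)! * C := by
    rw [hO, hE, ← asc_two_step, ascFactorial_eq_factorial_mul_choose]
  have hCg : C.Coprime g := h.coprime fun p hp hd => by
    have := hp.dvd_factorial.1 (hd.trans hgd); omega
  have hCE : C.Coprime E := by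
    refine h.coprime fun p hp hd => ?_
    rcases hp.dvd_mul.1 hd with h2 | h2
    · have := Nat.le_of_dvd two_pos (hp.dvd_of_dvd_pow h2); omega
    · have : p ∣ (x + k)! := h2.trans ⟨x !, by rw [mul_comm, factorial_mul_ascFactorial]⟩
      have := hp.dvd_factorial.1 this; omega
  have hCO : C ∣ O := hCE.dvd_of_dvd_mul_right (hOE ▸ dvd_mul_left _ _)
  have hgO : g ∣ O := odd_dvd_prod_step_two hgodd hgd x
  have hCgO : C * g ≤ O := Nat.le_of_dvd (Finset.prod_pos fun i _ => by omega)
    (hCg.mul_dvd_of_dvd_of_dvd hCO hgO)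
  have hC0 : 0 < C := choose_pos (by omega)
  have hgE : g * E ≤ (2 * k + 1)! := by
    refine Nat.le_of_mul_le_mul_left ?_ hC0
    calc C * (g * E) = C * g * E := by ring
      _ ≤ O * E := Nat.mul_le_mul_right _ hCgO
      _ = C * (2 * k + 1)! := by rw [hOE, mul_comm]
  have hfac : (k + 1)! ≤ 2 ^ k * g := by
    conv_lhs => rw [← Nat.ordProj_mul_ordCompl_eq_self (k + 1)! 2, ← hg]
    refine Nat.mul_le_mul_right _ (Nat.pow_le_pow_right two_pos ?_)
    by_contra hlt
    exact two_pow_lt_factorial (by omega : 0 < k + 1)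
      ((Nat.pow_dvd_pow 2 (by omega)).trans (Nat.ordProj_dvd (k + 1)! 2))
  have hfin : (k ! * (k + 1)!) * (x + k).choose k ≤ (k ! * (k + 1)!) * (2 * k + 1).choose k := by
    have h1 : (2 * k + 1).choose k * k ! * (k + 1)! = (2 * k + 1)! := by
      have := choose_mul_factorial_mul_factorial (show k ≤ 2 * k + 1 by omega)
      rwa [show 2 * k + 1 - k = k + 1 by omega] at this
    calc (k ! * (k + 1)!) * (x + k).choose k
        ≤ (2 ^ k * g) * (k ! * (x + k).choose k) := by
          rw [mul_comm (k !), mul_assoc]; exact Nat.mul_le_mul_right _ hfac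
      _ = g * E := by rw [hE, ascFactorial_eq_factorial_mul_choose]; ring
      _ ≤ (2 * k + 1)! := hgE
      _ = (k ! * (k + 1)!) * (2 * k + 1).choose k := by rw [← h1]; ring
  have hle := Nat.le_of_mul_le_mul_left hfin (by positivity)
  by_contra hlt
  have h2 : (2 * k + 2).choose k ≤ (x + k).choose k := choose_le_choose k (by omega)
  obtain ⟨j, rfl⟩ : ∃ j, k = j + 1 := ⟨k - 1, by omega⟩
  rw [show 2 * (j + 1) + 2 = (2 * (j + 1) + 1) + 1 by ring, choose_succ_succ'] at h2
  have := choose_pos (show j ≤ 2 * (j + 1) + 1 by omega)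
  omega

/-- If all prime factors of `C(a + b, b)` exceed `a > b ≥ 1`, then `b = 1` or `(a, b) = (4, 3)`. -/
theorem choose_rough {a b : ℕ} (hb : 1 ≤ b) (hba : b < a) (h : Rough a ((a + b).choose b)) :
    (b = 1 ∧ (a + 1).Prime) ∨ (a = 4 ∧ b = 3) := by
  set C := (a + b).choose b with hC
  have e1 : C * b = (a + b).choose (b - 1) * (a + 1) := by
    have := choose_succ_right_eq (a + b) (b - 1)
    rwa [show b - 1 + 1 = b by omega, show a + b - (b - 1) = a + 1 by omega] at this
  have ha1 : (a + 1).Prime := by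
    by_contra hnp
    have hcop : (a + 1).Coprime C := (h.coprime fun p hp hd => by
      have := le_half_of_dvd_not_prime (by omega) hnp hp hd; omega).symm
    have hdd : a + 1 ∣ C * b := Dvd.intro_left _ e1.symm
    have := Nat.le_of_dvd (by omega) (hcop.dvd_of_dvd_mul_left hdd)
    omega
  rcases Nat.eq_or_lt_of_le hb with rfl | hb2
  · exact Or.inl ⟨rfl, ha1⟩
  right
  have hn : (a + b).Prime := by
    by_contra hnp
    have hcop : (a + b).Coprime C := (h.coprime fun p hp hd => by
      have := le_half_of_dvd_not_prime (by omega) hnp hp hd; omega).symm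
    have e3 := Nat.add_one_mul_choose_eq (a + b - 1) (b - 1)
    rw [show a + b - 1 + 1 = a + b by omega, show b - 1 + 1 = b by omega] at e3
    have := Nat.le_of_dvd (by omega) (hcop.dvd_of_dvd_mul_left (e3 ▸ dvd_mul_right _ _))
    omega
  have haeven : 2 ∣ a := by
    rcases ha1.eq_two_or_odd with h2 | h2 <;> omega
  obtain ⟨x, rfl⟩ := haeven
  obtain ⟨k, rfl⟩ : ∃ k, b = 2 * k + 1 := by
    refine ⟨b / 2, ?_⟩
    rcases hn.eq_two_or_odd with h2 | h2 <;> omega
  have hxk : x = k + 1 := le_antisymm (rough_choose_le (by omega) (by omega) h) (by omega)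
  have hnp : ¬ (2 * x + 2).Prime := fun h' => by
    rcases h'.eq_two_or_odd with h2 | h2 <;> omega
  have e2 : (2 * x + (2 * k + 1)).choose (2 * k) * (2 * k)
      = (2 * x + (2 * k + 1)).choose (2 * k - 1) * (2 * x + 2) := by
    have := choose_succ_right_eq (2 * x + (2 * k + 1)) (2 * k - 1)
    rwa [show 2 * k - 1 + 1 = 2 * k by omega,
      show 2 * x + (2 * k + 1) - (2 * k - 1) = 2 * x + 2 by omega] at this
  rw [show 2 * k + 1 - 1 = 2 * k by omega] at e1
  have hcop : (2 * x + 2).Coprime C := (h.coprime fun p hp hd => by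
    have := le_half_of_dvd_not_prime (by omega) hnp hp hd; omega).symm
  have hd : 2 * x + 2 ∣ C * ((2 * k + 1) * (2 * k)) := by
    refine ⟨(2 * x + (2 * k + 1)).choose (2 * k - 1) * (2 * x + 1), ?_⟩
    calc C * ((2 * k + 1) * (2 * k)) = (C * (2 * k + 1)) * (2 * k) := by ring
      _ = (2 * x + 1) * ((2 * x + (2 * k + 1)).choose (2 * k) * (2 * k)) := by rw [e1]; ring
      _ = _ := by rw [e2]; ring
  have hd' := hcop.dvd_of_dvd_mul_left hd
  subst hxk
  have h12 : 2 * (k + 1) + 2 ∣ 12 := by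
    have h3 : (((2 * (k + 1) + 2 : ℕ)) : ℤ) ∣ (((2 * k + 1) * (2 * k) : ℕ) : ℤ) := by
      exact_mod_cast hd'
    obtain ⟨m, hm⟩ := h3
    have : (((2 * (k + 1) + 2 : ℕ)) : ℤ) ∣ ((12 : ℕ) : ℤ) :=
      ⟨m - 2 * (k : ℤ) + 3, by push_cast at hm ⊢; linear_combination hm⟩
    exact_mod_cast this
  have hle := Nat.le_of_dvd (by norm_num) h12
  have hk4 : k ≤ 4 := by omega
  interval_cases k
  · omega
  · omega
  · exact absurd h12 (by norm_num)
  · exact absurd h12 (by norm_num)
  · exfalso
    have := h 2 Nat.prime_two (by rw [hC]; decide)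
    omega

/-- `C(a + 2, 2)` always has a prime factor `≤ a` when `a ≥ 3`. -/
theorem not_rough_choose_two {a : ℕ} (ha : 3 ≤ a) : ¬ Rough a ((a + 2).choose 2) := by
  intro h
  have e : (a + 2).choose 2 = (a + 2) * (a + 1) / 2 := by
    rw [choose_two_right]; congr 2
  rcases Nat.even_or_odd' a with ⟨d, rfl | rfl⟩
  · have : (2 * d + 2).choose 2 = (d + 1) * (2 * d + 1) := by
      rw [e, show (2 * d + 2) * (2 * d + 1) = 2 * ((d + 1) * (2 * d + 1)) by ring,
        Nat.mul_div_cancel_left _ two_pos]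
    obtain ⟨p, hp, hd⟩ := Nat.exists_prime_and_dvd (show d + 1 ≠ 1 by omega)
    have := h p hp (this ▸ hd.mul_right _)
    have := Nat.le_of_dvd (by omega) hd
    omega
  · have : (2 * d + 1 + 2).choose 2 = (d + 1) * (2 * d + 3) := by
      rw [e, show (2 * d + 1 + 2) * (2 * d + 1 + 1) = 2 * ((d + 1) * (2 * d + 3)) by ring,
        Nat.mul_div_cancel_left _ two_pos]
    obtain ⟨p, hp, hd⟩ := Nat.exists_prime_and_dvd (show d + 1 ≠ 1 by omega)
    have := h p hp (this ▸ hd.mul_right _)
    have := Nat.le_of_dvd (by omega) hd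
    omega

end Cfsg.Agent.H63.Hall
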