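import Mathlib
import Cfsg.Agent.H63.Hall.NumberTheory
import Cfsg.Agent.H63.Hall.Cover

/-!
# The 3-cycle classes of a Hall subgroup

For a Hall π-subgroup `M` of `Alt(α)` with `2, 3 ∈ π`, the relation "a common 3-cycle of `M`
moves both" is an equivalence; its class sizes satisfy very restrictive arithmetic.
-/

set_option autoImplicit false
set_option linter.style.haveILetI false
set_option linter.unusedSectionVars false

namespace Cfsg.Agent.H63.Hall

open Equiv Equiv.Perm
open scoped Nat

variable {α : Type*} [Fintype α] [DecidableEq α]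

/-- Three-cycles of `M` meeting each other give all three-cycles on the union of their supports. -/
theorem threeCycle_mem_of_meet {M : Subgroup (Perm α)} {τ σ ρ : Perm α} (hτM : τ ∈ M)
    (hσM : σ ∈ M) (hτ : τ.IsThreeCycle) (hσ : σ.IsThreeCycle) {b : α} (hbτ : b ∈ τ.support)
    (hbσ : b ∈ σ.support) (hρ : ρ.IsThreeCycle) (hsub : ρ.support ⊆ τ.support ∪ σ.support) :
    ρ ∈ M := by
  classical
  set T := τ.support ∪ σ.support with hT
  have h3τ : τ.support.card.Prime := by rw [hτ.card_support]; exact Nat.prime_three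
  have h3σ : σ.support.card.Prime := by rw [hσ.card_support]; exact Nat.prime_three
  have h3ρ : ρ.support.card.Prime := by rw [hρ.card_support]; exact Nat.prime_three
  have hTc : T.card < 6 := by
    have h1 := Finset.card_union_add_card_inter τ.support σ.support
    have h2 : 0 < (τ.support ∩ σ.support).card :=
      Finset.card_pos.2 ⟨b, Finset.mem_inter.2 ⟨hbτ, hbσ⟩⟩
    rw [← hT, hτ.card_support, hσ.card_support] at h1
    omega
  obtain ⟨τ', hτe, hτc, hτs, hτz⟩ := cycle_lift hτ.isCycle h3τ (T := T) Finset.subset_union_left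
  obtain ⟨σ', hσe, hσc, hσs, hσz⟩ := cycle_lift hσ.isCycle h3σ (T := T) Finset.subset_union_right
  obtain ⟨ρ', hρe, hρc, hρs, -⟩ := cycle_lift hρ.isCycle h3ρ (T := T) hsub
  set L : Subgroup (Perm ↥T) := M.comap Perm.ofSubtype with hL
  have hτL : τ' ∈ L := Subgroup.mem_comap.2 (hτe ▸ hτM)
  have hσL : σ' ∈ L := Subgroup.mem_comap.2 (hσe ▸ hσM)
  haveI := isPretransitive_of_two_cycles hτL hσL hτc hσc
    (a := ⟨b, Finset.mem_union_left _ hbτ⟩) ((hτz _).2 hbτ) ((hσz _).2 hbσ)
    (fun z => (Finset.mem_union.1 z.2).imp (hτz z).2 (hσz z).2)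
  have hprim := isPreprimitive_of_cycle hτL hτc (hτs ▸ h3τ)
    (by rw [Fintype.card_coe, hτs, hτ.card_support]; omega)
  have hτ3 : τ'.IsThreeCycle := card_support_eq_three_iff.1 (by rw [hτs, hτ.card_support])
  have hle := alternatingGroup_le_of_isPreprimitive_of_isThreeCycle_mem hprim hτ3 hτL
  have hρ3 : ρ'.IsThreeCycle := card_support_eq_three_iff.1 (by rw [hρs, hρ.card_support])
  have : Perm.ofSubtype ρ' ∈ M := hle hρ3.mem_alternatingGroup
  rwa [hρe] at this

/-- `a` and `b` are moved by a common three-cycle of `M`. -/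
def Linked (M : Subgroup (Perm α)) (a b : α) : Prop :=
  a = b ∨ ∃ τ ∈ M, τ.IsThreeCycle ∧ a ∈ τ.support ∧ b ∈ τ.support

theorem Linked.trans {M : Subgroup (Perm α)} {a b c : α} (h1 : Linked M a b) (h2 : Linked M b c) :
    Linked M a c := by
  classical
  rcases eq_or_ne a b with rfl | hab
  · exact h2
  rcases eq_or_ne b c with rfl | hbc
  · exact h1
  rcases eq_or_ne a c with rfl | hac
  · exact Or.inl rfl
  obtain ⟨τ, hτM, hτ, haτ, hbτ⟩ := h1.resolve_left hab
  obtain ⟨σ, hσM, hσ, hbσ, hcσ⟩ := h2.resolve_left hbc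
  have hρ : (swap a b * swap a c).IsThreeCycle :=
    isThreeCycle_swap_mul_swap_same hab hac hbc
  have hsub : (swap a b * swap a c).support ⊆ τ.support ∪ σ.support := by
    intro z hz
    rw [mem_support, Perm.mul_apply] at hz
    by_contra hzT
    rw [Finset.mem_union, not_or] at hzT
    refine hz ?_
    rw [swap_apply_of_ne_of_ne (x := z) (fun h : z = a => hzT.1 (h ▸ haτ))
      (fun h : z = c => hzT.2 (h ▸ hcσ)),
      swap_apply_of_ne_of_ne (x := z) (fun h : z = a => hzT.1 (h ▸ haτ))
      (fun h : z = b => hzT.1 (h ▸ hbτ))]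
  refine Or.inr ⟨_, threeCycle_mem_of_meet hτM hσM hτ hσ hbτ hbσ hρ hsub, hρ, ?_, ?_⟩
  · rw [mem_support, Perm.mul_apply, swap_apply_left, swap_apply_of_ne_of_ne hac.symm hbc.symm]
    exact hac.symm
  · rw [mem_support, Perm.mul_apply, swap_apply_right, swap_apply_left]
    exact hbc

/-- The classes. -/
def classes (M : Subgroup (Perm α)) : Setoid α where
  r := Linked M
  iseqv :=
    { refl := fun _ => Or.inl rfl
      symm := fun h => by
        rcases h with rfl | ⟨τ, h1, h2, h3, h4⟩
        · exact Or.inl rfl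
        · exact Or.inr ⟨τ, h1, h2, h4, h3⟩
      trans := Linked.trans }

/-- The permutations preserving the classes. -/
def classStab (M : Subgroup (Perm α)) : Subgroup (Perm α) where
  carrier := {g | ∀ a b, Linked M (g a) (g b) ↔ Linked M a b}
  one_mem' := fun _ _ => Iff.rfl
  mul_mem' := fun {g h} hg hh a b => by simp only [Perm.mul_apply]; rw [hg, hh]
  inv_mem' := fun {g} hg a b => by rw [← hg]; simp

theorem conj_mem_classStab {M : Subgroup (Perm α)} {g : Perm α}
    (hg : ∀ m, g * m * g⁻¹ ∈ M ↔ m ∈ M) : g ∈ classStab M := by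
  intro a b
  constructor
  · rintro (h | ⟨τ, hτM, hτ, ha, hb⟩)
    · exact Or.inl (g.injective h)
    · refine Or.inr ⟨g⁻¹ * τ * g, (hg _).1 (by simpa [mul_assoc] using hτM), ?_, ?_, ?_⟩
      · rw [← card_support_eq_three_iff]
        have := card_support_conj (σ := g⁻¹) (τ := τ)
        rw [inv_inv] at this
        rw [this]; exact hτ.card_support
      · rw [mem_support] at ha ⊢
        simp only [Perm.mul_apply]
        exact fun h => ha (by simpa using congrArg g h)
      · rw [mem_support] at hb ⊢
        simp only [Perm.mul_apply]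
        exact fun h => hb (by simpa using congrArg g h)
  · rintro (rfl | ⟨τ, hτM, hτ, ha, hb⟩)
    · exact Or.inl rfl
    · refine Or.inr ⟨g * τ * g⁻¹, (hg τ).2 hτM,
        card_support_eq_three_iff.1 (by rw [card_support_conj]; exact hτ.card_support), ?_, ?_⟩
      · rw [mem_support] at ha ⊢
        simpa using ha
      · rw [mem_support] at hb ⊢
        simpa using hb

theorem le_classStab (M : Subgroup (Perm α)) : M ≤ classStab M := fun g hg =>
  conj_mem_classStab fun m => ⟨fun h => by
      have := M.mul_mem (M.mul_mem (M.inv_mem hg) h) hg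
      simpa [mul_assoc] using this,
    fun h => M.mul_mem (M.mul_mem hg h) (M.inv_mem hg)⟩

/-- The alternating group of a class lies in `M`. -/
theorem alternating_class_le (M : Subgroup (Perm α)) {C : Finset α}
    (hC : ∀ a ∈ C, ∀ b ∈ C, Linked M a b) :
    alternatingGroup ↥C ≤ M.comap (Perm.ofSubtype : Perm ↥C →* Perm α) := by
  classical
  rw [← closure_three_cycles_eq_alternating, Subgroup.closure_le]
  intro ρ hρ
  set ρ' := Perm.ofSubtype ρ with hρ'
  have hρ'3 : ρ'.IsThreeCycle := card_support_eq_three_iff.1 (by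
    rw [hρ', support_ofSubtype, Finset.card_map]; convert hρ.card_support)
  obtain ⟨z, hz⟩ := Finset.card_pos.1 (hρ.card_support.symm ▸ (by norm_num : 0 < 3))
  have hz1 := mem_support.1 hz
  have hz2 : ρ (ρ z) ≠ ρ z := fun h => hz1 (ρ.injective h)
  have hz3 : ρ (ρ z) ≠ z := by
    intro h
    have h2 : (ρ ^ 2) z = z := h
    have h3 : (ρ ^ 3) z = z := by
      rw [← hρ.orderOf, pow_orderOf_eq_one, Perm.one_apply]
    exact hz1 (by
      calc ρ z = ρ ((ρ ^ 2) z) := by rw [h2]
        _ = (ρ ^ 3) z := by rw [pow_succ' ρ 2, Perm.mul_apply]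
        _ = z := h3)
  obtain ⟨τ, hτM, hτ, haτ, hbτ⟩ := (hC _ z.2 _ (ρ z).2).resolve_left
    (fun h => hz1 (Subtype.ext h.symm))
  obtain ⟨σ, hσM, hσ, hbσ, hcσ⟩ := (hC _ (ρ z).2 _ (ρ (ρ z)).2).resolve_left
    (fun h => hz2 (Subtype.ext h.symm))
  rw [SetLike.mem_coe, Subgroup.mem_comap]
  refine threeCycle_mem_of_meet hτM hσM hτ hσ hbτ hbσ hρ'3 ?_
  intro w hw
  rw [support_ofSubtype, Finset.mem_map] at hw
  obtain ⟨x, hx, rfl⟩ := hw
  have hx : x = z ∨ x = ρ z ∨ x = ρ (ρ z) := by
    by_contra hne
    push Not at hne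
    obtain ⟨n1, n2, n3⟩ := hne
    have hle : ({x, z, ρ z, ρ (ρ z)} : Finset ↥C).card ≤ 3 := by
      rw [← hρ.card_support]
      refine Finset.card_le_card fun y hy => ?_
      simp only [Finset.mem_insert, Finset.mem_singleton] at hy
      rw [mem_support]
      rcases hy with rfl | rfl | rfl | rfl
      · simpa using hx
      · exact hz1
      · exact hz2
      · exact fun h => hz2 (ρ.injective h)
    rw [Finset.card_insert_of_notMem (by simp [n1, n2, n3]),
      Finset.card_eq_three.2 ⟨z, ρ z, ρ (ρ z), hz1.symm, hz3.symm, hz2.symm, rfl⟩] at hle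
    omega
  rcases hx with rfl | rfl | rfl
  · exact Finset.mem_union_left _ haτ
  · exact Finset.mem_union_left _ hbτ
  · exact Finset.mem_union_right _ hcσ

/-- The class of `a`. -/
noncomputable def cls (M : Subgroup (Perm α)) (a : α) : Finset α := by
  classical exact Finset.univ.filter (Linked M a)

theorem mem_cls {M : Subgroup (Perm α)} {a b : α} : b ∈ cls M a ↔ Linked M a b := by
  classical simp [cls]

theorem self_mem_cls (M : Subgroup (Perm α)) (a : α) : a ∈ cls M a := mem_cls.2 (Or.inl rfl)

theorem linked_of_mem_cls {M : Subgroup (Perm α)} {a b c : α} (hb : b ∈ cls M a)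
    (hc : c ∈ cls M a) : Linked M b c :=
  ((classes M).iseqv.symm (mem_cls.1 hb)).trans (mem_cls.1 hc)

theorem cls_eq_iff {M : Subgroup (Perm α)} {a b : α} : cls M a = cls M b ↔ Linked M a b := by
  constructor
  · intro h; exact mem_cls.1 (h ▸ self_mem_cls M b)
  · intro h
    ext x
    rw [mem_cls, mem_cls]
    exact ⟨fun h' => ((classes M).iseqv.symm h).trans h', fun h' => h.trans h'⟩

/-- The set of classes. -/
noncomputable def allClasses (M : Subgroup (Perm α)) : Finset (Finset α) :=
  Finset.univ.image (cls M)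

theorem allClasses_eq {M : Subgroup (Perm α)} {C : Finset α} (hC : C ∈ allClasses M) {a : α}
    (ha : a ∈ C) : C = cls M a := by
  obtain ⟨x, -, rfl⟩ := Finset.mem_image.1 hC
  exact cls_eq_iff.2 (mem_cls.1 ha)

theorem linked_of_mem_class {M : Subgroup (Perm α)} {C : Finset α} (hC : C ∈ allClasses M)
    {a b : α} (ha : a ∈ C) (hb : b ∈ C) : Linked M a b := by
  obtain ⟨x, -, rfl⟩ := Finset.mem_image.1 hC
  exact linked_of_mem_cls ha hb

theorem sum_card_allClasses (M : Subgroup (Perm α)) :
    ∑ C ∈ allClasses M, C.card = Fintype.card α := by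
  classical
  rw [← Finset.card_univ, Finset.card_eq_sum_card_image (cls M) Finset.univ]
  refine Finset.sum_congr rfl fun C hC => ?_
  congr 1
  ext a
  simp only [Finset.mem_filter, Finset.mem_univ, true_and]
  exact ⟨fun h => (allClasses_eq hC h).symm, fun h => h ▸ self_mem_cls M a⟩

theorem image_cls {M : Subgroup (Perm α)} {g : Perm α} (hg : g ∈ classStab M) (a : α) :
    (cls M a).map g.toEmbedding = cls M (g a) := by
  ext x
  rw [Finset.mem_map_equiv, mem_cls, mem_cls]
  constructor
  · intro h
    have := (hg a (g.symm x)).2 h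
    simpa using this
  · intro h
    refine (hg a (g.symm x)).1 ?_
    simpa using h

/-- The order of the class stabiliser divides `∏ |C|! · ∏ (multiplicity)!`. -/
theorem card_classStab_dvd (M : Subgroup (Perm α)) :
    Nat.card (classStab M) ∣ (∏ C ∈ allClasses M, C.card !) *
      ∏ i ∈ (allClasses M).image Finset.card, ((allClasses M).filter (fun C => C.card = i)).card ! := by
  classical
  set S := classStab M
  -- the action on the classes
  have hmem : ∀ (g : S), ∀ C : ↥(allClasses M),
      (C : Finset α).map (g : Perm α).toEmbedding ∈ allClasses M := fun g C => by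
    obtain ⟨x, -, hx⟩ := Finset.mem_image.1 C.2
    rw [← hx, image_cls g.2]
    exact Finset.mem_image_of_mem _ (Finset.mem_univ _)
  let act : S → ↥(allClasses M) → ↥(allClasses M) := fun g C => ⟨_, hmem g C⟩
  have act_one : ∀ C, act 1 C = C := fun C => by
    refine Subtype.ext ?_
    ext z; simp [act, Perm.one_def]
  have act_mul : ∀ g h C, act (g * h) C = act g (act h C) := fun g h C => by
    refine Subtype.ext ?_
    change (C : Finset α).map _ = ((C : Finset α).map _).map _
    rw [Finset.map_map]
    rfl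
  let actHom : S →* Perm ↥(allClasses M) :=
    { toFun := fun g => ⟨act g, act g⁻¹, fun C => by rw [← act_mul, inv_mul_cancel, act_one],
        fun C => by rw [← act_mul, mul_inv_cancel, act_one]⟩
      map_one' := Equiv.ext act_one
      map_mul' := fun g h => Equiv.ext (act_mul g h) }
  have hker : Nat.card actHom.ker ∣ ∏ C ∈ allClasses M, C.card ! := by
    have hfix : ∀ g : actHom.ker, ∀ C : ↥(allClasses M), ∀ x,
        ((g : S) : Perm α) x ∈ (C : Finset α) ↔ x ∈ (C : Finset α) := by
      intro g C x
      have h : act (g : S) C = C := congrArg (fun σ : Perm _ => σ C) g.2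
      have h' : (C : Finset α).map ((g : S) : Perm α).toEmbedding = C := congrArg Subtype.val h
      conv_lhs => rw [← h', Finset.mem_map_equiv]
      simp
    let ψ : actHom.ker →* ((C : ↥(allClasses M)) → Perm ↥(C : Finset α)) :=
      { toFun := fun g C => ((g : S) : Perm α).subtypePerm (hfix g C)
        map_one' := by funext C; ext x; simp
        map_mul' := fun g h => by funext C; ext x; rfl }
    have hψ : Function.Injective ψ := by
      intro g h hgh
      refine Subtype.ext (Subtype.ext (Equiv.ext fun x => ?_))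
      have := congrArg (fun σ : Perm _ => ((σ ⟨x, self_mem_cls M x⟩ : ↥(cls M x)) : α))
        (congrFun hgh ⟨cls M x, Finset.mem_image_of_mem _ (Finset.mem_univ x)⟩)
      simpa [ψ] using this
    refine (Subgroup.card_dvd_of_injective ψ hψ).trans ?_
    rw [Nat.card_pi, ← Finset.prod_coe_sort (allClasses M) (fun C => C.card !)]
    exact dvd_of_eq (Finset.prod_congr rfl fun C _ => by
      rw [Nat.card_perm, Nat.card_eq_fintype_card, Fintype.card_coe])
  have hrange : Nat.card actHom.range ∣ ∏ i ∈ (allClasses M).image Finset.card,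
      ((allClasses M).filter (fun C => C.card = i)).card ! := by
    let f : ↥(allClasses M) → ℕ := fun C => (C : Finset α).card
    let W : Subgroup (Perm ↥(allClasses M)) :=
      { carrier := {σ | f ∘ σ = f}
        one_mem' := rfl
        mul_mem' := fun {σ τ} hσ hτ => by
          simp only [Set.mem_ofPred_eq] at *
          rw [Perm.coe_mul, ← Function.comp_assoc, hσ, hτ]
        inv_mem' := fun {σ} hσ => by
          simp only [Set.mem_ofPred_eq] at *
          conv_lhs => rw [← hσ]
          funext C; simp }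
    have hle : actHom.range ≤ W := by
      rintro _ ⟨g, rfl⟩
      funext C
      exact Finset.card_map _
    refine (Subgroup.card_dvd_of_le hle).trans ?_
    have hW : Nat.card W = Fintype.card {σ : Perm ↥(allClasses M) // f ∘ σ = f} := by
      rw [← Nat.card_eq_fintype_card]; rfl
    rw [hW, DomMulAct.stabilizer_card']
    refine dvd_of_eq (Finset.prod_congr ?_ fun i _ => ?_)
    · ext i; simp [f]
    · rw [Fintype.card_subtype]
      congr 1
      rw [← Finset.card_map (Function.Embedding.subtype (· ∈ allClasses M))]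
      congr 1
      ext C; simp [f, and_comm]
  rw [← Subgroup.card_mul_index actHom.ker, Subgroup.index_ker]
  exact mul_dvd_mul hker hrange

end Cfsg.Agent.H63.Hall
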