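import Mathlib
import Cfsg.Agent.H63.Hall.Classes

/-!
# Classification of the non-trivial Hall subgroups of the alternating groups

If a Hall π-subgroup `M` of `Alt(α)` involves two primes of π and π misses some prime `≤ n`,
then `M` is the intersection with `Alt(α)` of a point stabiliser (`n` prime) or of the stabiliser
of a `4 | n-4` split (`n = 7, 8`, π = {2, 3}).
-/

set_option autoImplicit false
set_option linter.style.haveILetI false
set_option linter.unusedSectionVars false

namespace Cfsg.Agent.H63.Hall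

open Equiv Equiv.Perm
open scoped Nat

/-- Arithmetic of the class sizes. -/
theorem partition_cases {s : Finset ℕ} {m : ℕ → ℕ} {a n : ℕ} (ha : a ∈ s) (ha3 : 3 ≤ a)
    (hmax : ∀ i ∈ s, i ≤ a) (h0 : ∀ i ∈ s, 1 ≤ i ∧ i ≠ 2) (hm : ∀ i ∈ s, 1 ≤ m i)
    (hm1 : 1 ∈ s → m 1 ≤ 2) (hn : ∑ i ∈ s, i * m i = n)
    (hbell : ∀ i ∈ s, Rough a (Nat.uniformBell (m i) i))
    (hpair : ∀ i ∈ s, ∀ j ∈ s, i ≠ j → Rough a ((i * m i + j * m j).choose (i * m i))) :
    (n = a) ∨ (s = {a, 1} ∧ m a = 1 ∧ m 1 = 1 ∧ n = a + 1 ∧ (a + 1).Prime) ∨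
      (a = 4 ∧ n = 7 ∧ ∑ i ∈ s, m i = 2) ∨ (a = 4 ∧ n = 8 ∧ ∑ i ∈ s, m i = 2) := by
  have hrep : ∀ i ∈ s, 3 ≤ i → 2 ≤ m i → i = 4 ∧ a = 4 := by
    intro i hi hi3 hi2
    have hd : (2 * i - 1).choose (i - 1) ∣ Nat.uniformBell (m i) i := by
      rw [Nat.uniformBell_eq]
      refine Dvd.dvd.trans (dvd_of_eq ?_) (Finset.dvd_prod_of_mem _
        (Finset.mem_range.2 (by omega : 1 < m i)))
      congr 1 <;> omega
    have h4 : i = 4 := centralHalf_rough hi3 fun p hp hpd =>
      lt_of_le_of_lt (hmax i hi) ((hbell i hi).of_dvd hd p hp hpd)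
    subst h4
    have := (hbell 4 hi).of_dvd hd 5 (by norm_num) (by decide)
    have := hmax 4 hi
    exact ⟨rfl, by omega⟩
  rcases Nat.lt_or_ge (m a) 2 with hma | hma
  · have hma1 : m a = 1 := by have := hm a ha; omega
    have hmj : ∀ j ∈ s, 3 ≤ j → m j = 1 := by
      intro j hj hj3
      rcases Nat.lt_or_ge (m j) 2 with h | h
      · have := hm j hj; omega
      · obtain ⟨rfl, rfl⟩ := hrep j hj hj3 h
        omega
    have hcase : ∀ j ∈ s, j ≠ a → (j = 1 ∧ m 1 = 1 ∧ (a + 1).Prime) ∨ (a = 4 ∧ j = 3) := by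
      intro j hj hja
      have hp := hpair a ha j hj (Ne.symm hja)
      rw [hma1, mul_one] at hp
      have hlt : j < a := lt_of_le_of_ne (hmax j hj) hja
      rcases Nat.lt_or_ge j 3 with h3 | h3
      · obtain ⟨h1, h2⟩ := h0 j hj
        have hj1 : j = 1 := by omega
        subst hj1
        rw [one_mul] at hp
        rcases Nat.eq_or_lt_of_le (hm 1 hj) with h | h
        · rw [← h, Nat.choose_succ_self_right] at hp
          refine Or.inl ⟨rfl, h.symm, ?_⟩
          obtain ⟨p, hpp, hpd⟩ := Nat.exists_prime_and_dvd (show a + 1 ≠ 1 by omega)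
          have := hp p hpp hpd
          have := Nat.le_of_dvd (by omega) hpd
          rwa [show a + 1 = p by omega]
        · have h2 : m 1 = 2 := by have := hm1 hj; omega
          rw [h2, Nat.choose_symm_add] at hp
          exact absurd hp (not_rough_choose_two ha3)
      · rw [hmj j hj h3, mul_one, Nat.choose_symm_add] at hp
        rcases choose_rough (by omega) hlt hp with ⟨rfl, -⟩ | ⟨h4, hj3⟩
        · omega
        · exact Or.inr ⟨h4, hj3⟩
    by_cases hs : s = {a}
    · left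
      rw [← hn, hs, Finset.sum_singleton, hma1, mul_one]
    · obtain ⟨j, hj, hja⟩ : ∃ j ∈ s, j ≠ a := by
        by_contra hc
        push Not at hc
        exact hs (Finset.eq_singleton_iff_unique_mem.2 ⟨ha, hc⟩)
      have huniq : ∀ k ∈ s, k ≠ a → k = j := by
        intro k hk hka
        by_contra hkj
        have h34 : (1 ∈ s ∧ m 1 = 1) ∧ (3 ∈ s ∧ m 3 = 1) ∧ a = 4 := by
          rcases hcase j hj hja with ⟨rfl, h1, -⟩ | ⟨h4, rfl⟩ <;>
            rcases hcase k hk hka with ⟨rfl, h1', -⟩ | ⟨h4', rfl⟩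
          · exact absurd rfl hkj
          · exact ⟨⟨hj, h1⟩, ⟨hk, hmj 3 hk le_rfl⟩, h4'⟩
          · exact ⟨⟨hk, h1'⟩, ⟨hj, hmj 3 hj le_rfl⟩, h4⟩
          · exact absurd rfl hkj
        obtain ⟨⟨h1s, h1m⟩, ⟨h3s, h3m⟩, rfl⟩ := h34
        have := hpair 3 h3s 1 h1s (by norm_num)
        rw [h3m, h1m] at this
        have := this 2 Nat.prime_two (by decide)
        omega
      have hs2 : s = {a, j} := by
        ext k
        simp only [Finset.mem_insert, Finset.mem_singleton]
        exact ⟨fun hk => or_iff_not_imp_left.2 (huniq k hk), by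
          rintro (rfl | rfl) <;> assumption⟩
      rw [hs2, Finset.sum_pair (Ne.symm hja), hma1] at hn
      rcases hcase j hj hja with ⟨rfl, h1, hp⟩ | ⟨h4, rfl⟩
      · exact Or.inr (Or.inl ⟨hs2, hma1, h1, by rw [← hn, h1]; ring, hp⟩)
      · refine Or.inr (Or.inr (Or.inl ⟨h4, ?_, ?_⟩))
        · rw [← hn, hmj 3 hj le_rfl, h4]
        · rw [hs2, Finset.sum_pair (Ne.symm hja), hma1, hmj 3 hj le_rfl]
  · obtain ⟨-, rfl⟩ := hrep a ha ha3 hma
    have hm2 : m 4 = 2 := by
      by_contra hne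
      have hd : (3 * 4 - 1).choose (4 - 1) ∣ Nat.uniformBell (m 4) 4 := by
        rw [Nat.uniformBell_eq]
        exact Finset.dvd_prod_of_mem _ (Finset.mem_range.2 (by omega : 2 < m 4))
      have := (hbell 4 ha).of_dvd hd 3 Nat.prime_three (by decide)
      omega
    have hs : s = {4} := by
      refine Finset.eq_singleton_iff_unique_mem.2 ⟨ha, fun j hj => ?_⟩
      by_contra hj4
      obtain ⟨h1, h2⟩ := h0 j hj
      have := hmax j hj
      have hp := hpair 4 ha j hj (Ne.symm hj4)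
      rw [hm2] at hp
      have hj13 : j = 1 ∨ j = 3 := by omega
      rcases hj13 with rfl | rfl
      · have hle := hm1 hj
        have hge := hm 1 hj
        interval_cases h : m 1 <;> exact absurd (hp 3 Nat.prime_three (by decide)) (by norm_num)
      · have hm3 : m 3 = 1 := by
          rcases Nat.lt_or_ge (m 3) 2 with h | h
          · have := hm 3 hj; omega
          · have := (hrep 3 hj le_rfl h).1; omega
        rw [hm3] at hp
        exact absurd (hp 3 Nat.prime_three (by decide)) (by norm_num)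
    refine Or.inr (Or.inr (Or.inr ⟨rfl, ?_, ?_⟩))
    · rw [← hn, hs, Finset.sum_singleton, hm2]
    · rw [hs, Finset.sum_singleton, hm2]

variable {α : Type*} [Fintype α] [DecidableEq α]

/-- The stabiliser of the partition `{A, Aᶜ}`. -/
def split (A : Finset α) : Subgroup (Perm α) where
  carrier := {g | ∀ a b, (g a ∈ A ↔ g b ∈ A) ↔ (a ∈ A ↔ b ∈ A)}
  one_mem' := fun _ _ => Iff.rfl
  mul_mem' := fun {g h} hg hh a b => (hg (h a) (h b)).trans (hh a b)
  inv_mem' := fun {g} hg a b => by rw [← hg]; simp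

/-- The exceptional configurations of Hall's theorem. -/
def Standard (π : Set ℕ) (A : Finset α) : Prop :=
  (A.card = 1 ∧ (Fintype.card α).Prime ∧
      ∀ r : ℕ, r.Prime → r ≤ Fintype.card α → (r ∈ π ↔ r < Fintype.card α)) ∨
    (A.card = 4 ∧ (Fintype.card α = 7 ∨ Fintype.card α = 8) ∧
      ∀ r : ℕ, r.Prime → r ≤ Fintype.card α → (r ∈ π ↔ r = 2 ∨ r = 3))

/-- A π-group over a Hall subgroup of the alternating group and inside it is that subgroup. -/
theorem eq_of_le_of_pi {π : Set ℕ} {M K : Subgroup (Perm α)} (hM : HallAlt π M) (hMK : M ≤ K)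
    (hKA : K ≤ alternatingGroup α) (hK : Cfsg.IsPiSubgroup π K) : K = M := by
  refine le_antisymm (Subgroup.relIndex_eq_one.1 ?_) hMK
  by_contra h1
  obtain ⟨p, hp, hd⟩ := Nat.exists_prime_and_dvd h1
  refine hM.2.2 p hp (hK p hp (hd.trans (Subgroup.relIndex_dvd_card M K))) (hd.trans ?_)
  exact Dvd.intro _ (Subgroup.relIndex_mul_relIndex M K (alternatingGroup α) hMK hKA)

/-- A Hall π-subgroup of `S_n` inside a π-subgroup is equal to it. -/
theorem eq_of_hall_le {G : Type*} [Group G] [Finite G] {π : Set ℕ} {H K : Subgroup G}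
    (hH : Cfsg.IsPiHall π H) (hHK : H ≤ K) (hK : Cfsg.IsPiSubgroup π K) : H = K := by
  refine le_antisymm hHK (Subgroup.relIndex_eq_one.1 ?_)
  by_contra h1
  obtain ⟨p, hp, hd⟩ := Nat.exists_prime_and_dvd h1
  exact hH.2 p hp (hK p hp (hd.trans (Subgroup.relIndex_dvd_card H K)))
    (hd.trans (Subgroup.relIndex_dvd_index_of_le hHK))

/-- Hall's classification. -/
theorem classify {π : Set ℕ} {M : Subgroup (Perm α)} (hM : HallAlt π M)
    (h2 : ∃ r s : ℕ, r.Prime ∧ s.Prime ∧ r ≠ s ∧ r ∈ π ∧ s ∈ π ∧ r ≤ Fintype.card α ∧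
      s ≤ Fintype.card α)
    (hns : ∃ r : ℕ, r.Prime ∧ r ≤ Fintype.card α ∧ r ∉ π) :
    ∃ A : Finset α, Standard π A ∧ M = split A ⊓ alternatingGroup α ∧
      (∀ g : Perm α, (∀ m, g * m * g⁻¹ ∈ M ↔ m ∈ M) → g ∈ split A) ∧
      Cfsg.IsPiHall π (split A) := by
  classical
  set n := Fintype.card α with hn
  -- `2 ∈ π`
  have h2π : 2 ∈ π := by
    obtain ⟨r, s, hr, hs, hrs, hrπ, hsπ, hrn, hsn⟩ := h2
    by_contra h2π
    have hr2 : r ≠ 2 := fun h => h2π (h ▸ hrπ)
    have hs2 : s ≠ 2 := fun h => h2π (h ▸ hsπ)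
    rcases lt_or_gt_of_ne hrs with h | h
    · exact h2π (two_mem_of_two_odd hM hr hs hr2 hs2 h hrπ hsπ hsn)
    · exact h2π (two_mem_of_two_odd hM hs hr hs2 hr2 h hsπ hrπ hrn)
  obtain ⟨q, hq, hq2, hqπ, hqn⟩ : ∃ q : ℕ, q.Prime ∧ q ≠ 2 ∧ q ∈ π ∧ q ≤ n := by
    obtain ⟨r, s, hr, hs, hrs, hrπ, hsπ, hrn, hsn⟩ := h2
    rcases eq_or_ne r 2 with rfl | h
    · exact ⟨s, hs, hrs.symm, hsπ, hsn⟩
    · exact ⟨r, hr, h, hrπ, hrn⟩
  have hn3 : 3 ≤ n := by have := hq.two_le; omega
  have h3π : 3 ∈ π := three_mem_of_two_mem hM h2π hq hq2 hqπ hqn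
  obtain ⟨U, hU, hUy⟩ := exists_cycle_cover hM Nat.prime_three (by norm_num) h3π
  rw [← hn] at hU
  have hUne : U.Nonempty := Finset.card_pos.1 (by omega)
  set cs := allClasses M with hcs
  set s := cs.image Finset.card with hsdef
  set m : ℕ → ℕ := fun i => (cs.filter (fun C => C.card = i)).card with hmdef
  -- class sizes
  have hbig : ∀ x y, Linked M x y → x ≠ y → 3 ≤ (cls M x).card := by
    intro x y hxy hne
    obtain ⟨τ, hτM, hτ, hx, hy⟩ := hxy.resolve_left hne
    rw [← hτ.card_support]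
    exact Finset.card_le_card fun z hz => mem_cls.2 (Or.inr ⟨τ, hτM, hτ, hx, hz⟩)
  have hU3 : ∀ x ∈ U, 3 ≤ (cls M x).card := by
    intro x hx
    obtain ⟨y, hyM, hy, hy3, hxy⟩ := hUy x hx
    rw [← hy3]
    exact Finset.card_le_card fun z hz =>
      mem_cls.2 (Or.inr ⟨y, hyM, card_support_eq_three_iff.1 hy3, hxy, hz⟩)
  have h0 : ∀ i ∈ s, 1 ≤ i ∧ i ≠ 2 := by
    intro i hi
    obtain ⟨C, hC, rfl⟩ := Finset.mem_image.1 hi
    obtain ⟨x, -, rfl⟩ := Finset.mem_image.1 hC
    refine ⟨Finset.card_pos.2 ⟨x, self_mem_cls M x⟩, fun h => ?_⟩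
    obtain ⟨y, hy, hne⟩ := Finset.exists_mem_ne (s := cls M x) (by omega) x
    have := hbig x y (mem_cls.1 hy) hne.symm
    omega
  have hm : ∀ i ∈ s, 1 ≤ m i := by
    intro i hi
    obtain ⟨C, hC, rfl⟩ := Finset.mem_image.1 hi
    exact Finset.card_pos.2 ⟨C, Finset.mem_filter.2 ⟨hC, rfl⟩⟩
  have hm1 : m 1 ≤ 2 := by
    have hsub : cs.filter (fun C => C.card = 1) ⊆ Uᶜ.image (cls M) := by
      intro C hC
      obtain ⟨hC, hC1⟩ := Finset.mem_filter.1 hC
      obtain ⟨x, -, rfl⟩ := Finset.mem_image.1 hC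
      refine Finset.mem_image_of_mem _ (Finset.mem_compl.2 fun hx => ?_)
      have := hU3 x hx
      omega
    refine ((Finset.card_le_card hsub).trans Finset.card_image_le).trans ?_
    rw [Finset.card_compl, ← hn]
    omega
  set a := s.max' (by
    obtain ⟨x, -⟩ := hUne
    exact ⟨_, Finset.mem_image_of_mem _ (Finset.mem_image_of_mem (cls M) (Finset.mem_univ x))⟩)
    with hadef
  have hamem : a ∈ s := Finset.max'_mem _ _
  have hmax : ∀ i ∈ s, i ≤ a := fun i hi => Finset.le_max' _ _ hi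
  have ha3 : 3 ≤ a := by
    obtain ⟨x, hx⟩ := hUne
    exact (hU3 x hx).trans (hmax _ (Finset.mem_image_of_mem _
      (Finset.mem_image_of_mem (cls M) (Finset.mem_univ x))))
  have hsum : ∑ i ∈ s, i * m i = n := by
    rw [hn, ← sum_card_allClasses M, ← hcs]
    rw [← Finset.sum_fiberwise_of_maps_to (g := Finset.card) (t := s)
      (fun C hC => Finset.mem_image_of_mem _ hC) (fun C => C.card)]
    refine Finset.sum_congr rfl fun i _ => ?_
    rw [Finset.sum_const_nat (fun C hC => (Finset.mem_filter.1 hC).2), mul_comm]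
  -- primes `≤ a` are in π
  have hprime : ∀ p : ℕ, p.Prime → p ≤ a → p ∈ π := by
    intro p hp hpa
    rcases eq_or_ne p 2 with rfl | hp2
    · exact h2π
    obtain ⟨C, hC, hCa⟩ := Finset.mem_image.1 hamem
    haveI : Nontrivial ↥C := Fintype.one_lt_card_iff_nontrivial.1 (by rw [Fintype.card_coe]; omega)
    have hd : p ∣ Nat.card ↥(alternatingGroup ↥C) := by
      have h := two_mul_card_alternatingGroup (α := ↥C)
      rw [Fintype.card_perm, Fintype.card_coe, hCa] at h
      have : p ∣ 2 * Nat.card ↥(alternatingGroup ↥C) := by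
        rw [Nat.card_eq_fintype_card, h]
        exact Nat.dvd_factorial hp.pos hpa
      exact (hp.dvd_mul.1 this).resolve_left fun h' =>
        hp2 ((Nat.prime_dvd_prime_iff_eq hp Nat.prime_two).1 h')
    refine hM.2.1 p hp (hd.trans ?_)
    exact (Subgroup.card_dvd_of_le (alternating_class_le M
        (fun x hx y hy => linked_of_mem_class hC hx hy))).trans
      (Subgroup.card_comap_dvd_of_injective M _ ofSubtype_injective)
  -- the index
  set S := classStab M
  set D := (∏ C ∈ cs, C.card !) * ∏ i ∈ s, (m i)! with hD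
  have hSD : Nat.card S ∣ D := card_classStab_dvd M
  set idx := M.relIndex (alternatingGroup α) with hidx
  haveI : Nontrivial α := Fintype.one_lt_card_iff_nontrivial.1 (by omega)
  have hfac : n ! = 2 * Nat.card M * idx := by
    have h := two_mul_card_alternatingGroup (α := α)
    rw [Fintype.card_perm, ← hn, ← Nat.card_eq_fintype_card,
      ← Subgroup.relIndex_bot_left, ← Subgroup.relIndex_mul_relIndex ⊥ M (alternatingGroup α)
        bot_le hM.1, Subgroup.relIndex_bot_left] at h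
    rw [← h, hidx, mul_assoc]
  have h2S : 2 * Nat.card M ∣ Nat.card S := by
    obtain ⟨C, hC, hCa⟩ := Finset.mem_image.1 hamem
    obtain ⟨x, hx, y, hy, hxy⟩ := Finset.one_lt_card.1 (show 1 < C.card by omega)
    have hl := linked_of_mem_class hC hx hy
    have hL : ∀ z, Linked M (swap x y z) z := by
      intro z
      rcases eq_or_ne z x with rfl | h1
      · rw [swap_apply_left]; exact (classes M).iseqv.symm hl
      rcases eq_or_ne z y with rfl | h2
      · rw [swap_apply_right]; exact hl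
      · rw [swap_apply_of_ne_of_ne h1 h2]; exact Or.inl rfl
    have hswap : swap x y ∈ S := fun u v =>
      ⟨fun h => (((classes M).iseqv.symm (hL u)).trans h).trans (hL v),
        fun h => ((hL u).trans h).trans ((classes M).iseqv.symm (hL v))⟩
    set f : S →* ℤˣ := (sign : Perm α →* ℤˣ).comp S.subtype with hf
    have hr : Nat.card f.range = 2 := by
      rw [MonoidHom.range_eq_top.2, Subgroup.card_top, Nat.card_eq_fintype_card,
        Fintype.card_units_int]
      intro u
      rcases Int.units_eq_one_or u with rfl | rfl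
      · exact ⟨1, map_one f⟩
      · exact ⟨⟨_, hswap⟩, sign_swap hxy⟩
    rw [← Subgroup.card_mul_index f.ker, Subgroup.index_ker, hr, mul_comm]
    refine mul_dvd_mul_right ?_ 2
    rw [← Nat.card_congr (Subgroup.subgroupOfEquivOfLe (le_classStab M)).toEquiv]
    refine Subgroup.card_dvd_of_le fun g hg => ?_
    exact mem_alternatingGroup.1 (hM.1 (Subgroup.mem_subgroupOf.1 hg))
  -- decomposition of `n!`
  have hDs : D = ∏ i ∈ s, (i ! ^ m i * (m i)!) := by
    rw [hD, Finset.prod_mul_distrib]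
    congr 1
    exact Finset.prod_comp (fun i => i !) Finset.card
  have hbellmul : (∏ i ∈ s, Nat.uniformBell (m i) i) * D = ∏ i ∈ s, (i * m i)! := by
    rw [hDs, ← Finset.prod_mul_distrib]
    refine Finset.prod_congr rfl fun i hi => ?_
    rw [← mul_assoc, Nat.uniformBell_mul_eq _ (by have := (h0 i hi).1; omega), mul_comm i]
  have hD0 : 0 < D := Nat.mul_pos (Finset.prod_pos fun _ _ => Nat.factorial_pos _)
    (Finset.prod_pos fun _ _ => Nat.factorial_pos _)
  have hdvd : ∀ N, (∃ K, n ! = N * K * D) → N ∣ idx := by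
    rintro N ⟨K, hK⟩
    have : N * K * D ∣ idx * D := by
      rw [← hK, hfac, mul_comm idx D]
      exact mul_dvd_mul_right (h2S.trans hSD) _
    exact dvd_trans (dvd_mul_right N K) (Nat.dvd_of_mul_dvd_mul_right hD0 this)
  have hrough : ∀ N, N ∣ idx → Rough a N := fun N hN p hp hpN => by
    by_contra hle
    exact hM.2.2 p hp (hprime p hp (by omega)) (hpN.trans hN)
  obtain ⟨M0, hM0⟩ : (∏ i ∈ s, (i * m i)!) ∣ n ! := by
    rw [← hsum]; exact Nat.prod_factorial_dvd_factorial_sum _ _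
  have hK : n ! = (M0 * ∏ i ∈ s, Nat.uniformBell (m i) i) * D := by
    rw [hM0, ← hbellmul]; ring
  have hbell : ∀ i ∈ s, Rough a (Nat.uniformBell (m i) i) := fun i hi =>
    (hrough (M0 * ∏ i ∈ s, Nat.uniformBell (m i) i)
      (hdvd _ ⟨1, by rw [mul_one]; exact hK⟩)).of_dvd
      ((Finset.dvd_prod_of_mem _ hi).mul_left _)
  have hpair : ∀ i ∈ s, ∀ j ∈ s, i ≠ j → Rough a ((i * m i + j * m j).choose (i * m i)) := by
    intro i hi j hj hij
    set t := (s.erase i).erase j with ht
    have hjt : j ∈ s.erase i := Finset.mem_erase.2 ⟨hij.symm, hj⟩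
    obtain ⟨r, hr⟩ : (i * m i + j * m j)! * ∏ k ∈ t, (k * m k)! ∣ n ! := by
      refine dvd_trans (mul_dvd_mul_left _ (Nat.prod_factorial_dvd_factorial_sum t _)) ?_
      refine dvd_trans (Nat.factorial_mul_factorial_dvd_factorial_add _ _) (dvd_of_eq ?_)
      congr 1
      rw [← hsum, ← Finset.add_sum_erase _ _ hi, ← Finset.add_sum_erase _ _ hjt, ← ht]
      ring
    refine hrough _ (hdvd _ ⟨r * ∏ k ∈ s, Nat.uniformBell (m k) k, ?_⟩)
    rw [hr, ← Nat.add_choose_mul_factorial_mul_factorial, mul_assoc _ _ D, mul_assoc r _ D,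
      hbellmul, ← Finset.mul_prod_erase _ _ hi, ← Finset.mul_prod_erase _ _ hjt, ← ht, Nat.choose_symm_add]
    ring
  -- conclusions
  have hres := partition_cases hamem ha3 hmax h0 hm (fun _ => hm1) hsum hbell hpair
  have hm2 : ∀ i ∈ s, m i ≤ 2 := by
    intro i hi
    rcases hres with h | ⟨hs', h1, h1', -, -⟩ | ⟨-, -, h⟩ | ⟨-, -, h⟩
    · by_contra hlt
      have h' := Finset.single_le_sum (f := fun k => k * m k) (fun _ _ => Nat.zero_le _) hamem
      have h'' := Finset.single_le_sum (f := fun k => k * m k) (fun _ _ => Nat.zero_le _) hi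
      rw [hsum] at h' h''
      have hia : i = a := by
        by_contra hne
        have hj : i ∈ s.erase a := Finset.mem_erase.2 ⟨hne, hi⟩
        have := Finset.single_le_sum (f := fun k => k * m k) (fun _ _ => Nat.zero_le _) hj
        have := Finset.add_sum_erase s (fun k => k * m k) hamem
        rw [hsum] at this
        have := hm a hamem
        have := (h0 i hi).1
        nlinarith
      subst hia
      rw [h] at h''
      nlinarith
    · rw [hs'] at hi
      simp only [Finset.mem_insert, Finset.mem_singleton] at hi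
      rcases hi with rfl | rfl <;> omega
    all_goals exact (Finset.single_le_sum (fun _ _ => Nat.zero_le _) hi).trans h.le
  have hπ : ∀ r : ℕ, r.Prime → r ≤ n → (r ∈ π ↔ r ≤ a) := by
    refine fun r hr hrn => ⟨fun hrπ => ?_, hprime r hr⟩
    by_contra hlt
    have hd : r ∣ (M0 * ∏ i ∈ s, Nat.uniformBell (m i) i) * D := hK ▸ Nat.dvd_factorial hr.pos hrn
    rcases hr.dvd_mul.1 hd with h | h
    · exact hM.2.2 r hr hrπ (h.trans
        (hdvd (M0 * ∏ i ∈ s, Nat.uniformBell (m i) i) ⟨1, by rw [mul_one]; exact hK⟩))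
    · rw [hDs] at h
      obtain ⟨i, hi, h⟩ := (Prime.dvd_finsetProd_iff hr.prime _).1 h
      have := hmax i hi
      have := hm2 i hi
      rcases hr.dvd_mul.1 h with h | h
      · have := hr.dvd_factorial.1 (hr.dvd_of_dvd_pow h); omega
      · have := hr.dvd_factorial.1 h; omega
  have hSpi : Cfsg.IsPiSubgroup π S := by
    intro p hp hd
    have h := hd.trans hSD
    rw [hDs] at h
    obtain ⟨i, hi, h⟩ := (Prime.dvd_finsetProd_iff hp.prime _).1 h
    have := hmax i hi
    have := hm2 i hi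
    rcases hp.dvd_mul.1 h with h | h
    · have := hp.dvd_factorial.1 (hp.dvd_of_dvd_pow h); exact hprime p hp (by omega)
    · have := hp.dvd_factorial.1 h; exact hprime p hp (by omega)
  have hSH : Cfsg.IsPiHall π S := by
    refine ⟨hSpi, fun p hp hpπ hd => hM.2.2 p hp hpπ (hd.trans ?_)⟩
    obtain ⟨t, ht⟩ := h2S
    have h := S.card_mul_index
    rw [Nat.card_perm, Nat.card_eq_fintype_card (α := α), ← hn, hfac, ht, mul_assoc] at h
    exact Dvd.intro_left t (Nat.eq_of_mul_eq_mul_left (Nat.mul_pos two_pos Nat.card_pos) h)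
  have hMS : M = S ⊓ alternatingGroup α := (eq_of_le_of_pi hM (le_inf (le_classStab M) hM.1)
    inf_le_right (fun p hp hd => hSpi p hp (hd.trans (Subgroup.card_dvd_of_le inf_le_left)))).symm
  obtain ⟨C, hC, hCstd, htwo⟩ :
      ∃ C ∈ cs, Standard π C ∧ cs.card = 2 := by
    have hcard : cs.card = ∑ i ∈ s, m i := Finset.card_eq_sum_card_image _ _
    rcases hres with h | ⟨hs', h1, h1', hna, hp⟩ | ⟨h4, hn7, h⟩ | ⟨h4, hn8, h⟩
    · exfalso
      obtain ⟨r, hr, hrn, hrπ⟩ := hns
      exact hrπ ((hπ r hr hrn).2 (by omega))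
    · have h1s : 1 ∈ s := by rw [hs']; simp
      obtain ⟨C, hC, hC1⟩ := Finset.mem_image.1 h1s
      refine ⟨C, hC, Or.inl ⟨hC1, ?_, fun r hr hrn => ?_⟩, ?_⟩
      · rw [← hn, hna]; exact hp
      · rw [hπ r hr hrn, ← hn]; omega
      · rw [hcard, hs', Finset.sum_pair (by omega), h1, h1']
    all_goals
      obtain ⟨C, hC, hCa⟩ := Finset.mem_image.1 hamem
      refine ⟨C, hC, Or.inr ⟨by omega, by omega, fun r hr hrn => ?_⟩, by omega⟩
      rw [hπ r hr hrn, h4]
      have := hr.two_le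
      constructor
      · intro h; interval_cases r <;> norm_num at *
      · omega
  have hrel : ∀ x y, Linked M x y ↔ (x ∈ C ↔ y ∈ C) := by
    intro x y
    obtain ⟨C', hC', hne⟩ := Finset.exists_mem_ne (s := cs) (by omega) C
    have hall : ∀ z, cls M z = C ∨ cls M z = C' := by
      intro z
      have heq : ({C, C'} : Finset (Finset α)) = cs := Finset.eq_of_subset_of_card_le
        (Finset.insert_subset hC (Finset.singleton_subset_iff.2 hC'))
        (by rw [htwo, Finset.card_pair hne.symm])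
      have : cls M z ∈ cs := Finset.mem_image_of_mem _ (Finset.mem_univ z)
      rw [← heq] at this
      simpa using this
    have hmemC : ∀ z, z ∈ C ↔ cls M z = C :=
      fun z => ⟨fun h => (allClasses_eq hC h).symm, fun h => h ▸ self_mem_cls M z⟩
    rw [← cls_eq_iff, hmemC, hmemC]
    rcases hall x with h | h <;> rcases hall y with h' | h' <;> simp [h, h', hne, hne.symm]
  have hS : S = split C := by
    ext g
    change (∀ u v, Linked M (g u) (g v) ↔ Linked M u v) ↔
      (∀ u v, (g u ∈ C ↔ g v ∈ C) ↔ (u ∈ C ↔ v ∈ C))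
    simp only [hrel]
  exact ⟨C, hCstd, hS ▸ hMS, fun g hg => hS ▸ conj_mem_classStab hg, hS ▸ hSH⟩

end Cfsg.Agent.H63.Hall
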