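import Mathlib
import Cfsg.Agent.H63.Hall.Classify

/-!
# Consequences of Hall's classification

Existence, conjugacy and lifting of Hall subgroups of alternating and symmetric groups.
-/

set_option autoImplicit false
set_option linter.style.haveILetI false
set_option linter.unusedSectionVars false

namespace Cfsg.Agent.H63.Hall

open Equiv Equiv.Perm
open scoped Nat

section General

variable {G : Type*} [Group G] [Finite G] {π : Set ℕ}

/-- All primes of `|G|` lie in π, or at most one does. -/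
def Easy (π : Set ℕ) (N : ℕ) : Prop :=
  (∀ r s : ℕ, r.Prime → s.Prime → r ∈ π → s ∈ π → r ∣ N → s ∣ N → r = s) ∨
    ∀ r : ℕ, r.Prime → r ∣ N → r ∈ π

theorem exists_hall_ge (h : Easy π (Nat.card G)) {K : Subgroup G} (hK : Cfsg.IsPiSubgroup π K) :
    ∃ H : Subgroup G, Cfsg.IsPiHall π H ∧ K ≤ H := by
  rcases h with hone | hall
  · by_cases hex : ∃ p : ℕ, p.Prime ∧ p ∈ π ∧ p ∣ Nat.card G
    · obtain ⟨p, hp, hpπ, hpG⟩ := hex
      haveI : Fact p.Prime := ⟨hp⟩
      have hKp : IsPGroup p K := by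
        refine IsPGroup.of_card (n := (Nat.card K).primeFactorsList.length)
          (Nat.eq_prime_pow_of_unique_prime_dvd Nat.card_pos.ne' fun {r} hr hd => ?_)
        exact hone r p hr hp (hK r hr hd) hpπ (hd.trans K.card_subgroup_dvd_card) hpG
      obtain ⟨P, hP⟩ := hKp.exists_le_sylow
      refine ⟨P, ⟨fun r hr hd => ?_, fun r hr hrπ hd => ?_⟩, hP⟩
      · obtain ⟨k, hk⟩ := IsPGroup.iff_card.1 P.isPGroup'
        rw [hk] at hd
        rwa [(Nat.prime_dvd_prime_iff_eq hr hp).1 (hr.dvd_of_dvd_pow hd)]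
      · have hrG : r ∣ Nat.card G := hd.trans (Subgroup.index_dvd_card _)
        exact P.not_dvd_index ((hone r p hr hp hrπ hpπ hrG hpG) ▸ hd)
    · push Not at hex
      refine ⟨K, ⟨hK, fun r hr hrπ hd => ?_⟩, le_rfl⟩
      exact hex r hr hrπ (hd.trans (Subgroup.index_dvd_card _))
  · refine ⟨⊤, ⟨fun r hr hd => hall r hr (by rwa [Subgroup.card_top] at hd), fun r hr _ hd => ?_⟩,
      le_top⟩
    rw [Subgroup.index_top] at hd
    exact hr.not_dvd_one hd

theorem hall_conj (h : Easy π (Nat.card G)) {H K : Subgroup G} (hH : Cfsg.IsPiHall π H)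
    (hK : Cfsg.IsPiHall π K) : ∃ g : G, K = H.map (MulAut.conj g).toMonoidHom := by
  rcases h with hone | hall
  · by_cases hex : ∃ p : ℕ, p.Prime ∧ p ∈ π ∧ p ∣ Nat.card G
    · obtain ⟨p, hp, hpπ, hpG⟩ := hex
      haveI : Fact p.Prime := ⟨hp⟩
      have hpg : ∀ L : Subgroup G, Cfsg.IsPiHall π L → ∃ P : Sylow p G, (P : Subgroup G) = L := by
        intro L hL
        have hLp : IsPGroup p L := by
          refine IsPGroup.of_card (n := (Nat.card L).primeFactorsList.length)
            (Nat.eq_prime_pow_of_unique_prime_dvd Nat.card_pos.ne' fun {r} hr hd => ?_)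
          exact hone r p hr hp (hL.1 r hr hd) hpπ (hd.trans L.card_subgroup_dvd_card) hpG
        exact ⟨hLp.toSylow (hL.2 p hp hpπ), rfl⟩
      obtain ⟨P, rfl⟩ := hpg H hH
      obtain ⟨Q, rfl⟩ := hpg K hK
      obtain ⟨g, hg⟩ := MulAction.exists_smul_eq G P Q
      exact ⟨g, by rw [← hg]; rfl⟩
    · push Not at hex
      have hbot : ∀ L : Subgroup G, Cfsg.IsPiHall π L → L = ⊥ := by
        intro L hL
        refine Subgroup.card_eq_one.1 ?_
        by_contra hne
        obtain ⟨r, hr, hd⟩ := Nat.exists_prime_and_dvd hne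
        exact hex r hr (hL.1 r hr hd) (hd.trans L.card_subgroup_dvd_card)
      exact ⟨1, by rw [hbot H hH, hbot K hK, Subgroup.map_bot]⟩
  · have htop : ∀ L : Subgroup G, Cfsg.IsPiHall π L → L = ⊤ := by
      intro L hL
      refine Subgroup.index_eq_one.1 ?_
      by_contra hne
      obtain ⟨r, hr, hd⟩ := Nat.exists_prime_and_dvd hne
      exact hL.2 r hr (hall r hr (hd.trans (Subgroup.index_dvd_card _))) hd
    refine ⟨1, ?_⟩
    rw [htop H hH, htop K hK, Subgroup.map_top_of_surjective]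
    exact (MulAut.conj (1 : G)).surjective

theorem isCPi_of_easy (h : Easy π (Nat.card G)) : Cfsg.IsCPiGroup π G := by
  refine ⟨?_, fun H K hH hK => hall_conj h hH hK⟩
  obtain ⟨H, hH, -⟩ := exists_hall_ge h (K := (⊥ : Subgroup G))
    (fun p hp hd => absurd (Subgroup.card_bot (G := G) ▸ hd) hp.not_dvd_one)
  exact ⟨H, hH⟩

theorem isDPi_of_easy (h : Easy π (Nat.card G)) : Cfsg.IsDPiGroup π G := by
  intro H K hH hK
  obtain ⟨H', hH', hHH'⟩ := exists_hall_ge h hH.1
  obtain ⟨K', hK', hKK'⟩ := exists_hall_ge h hK.1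
  rw [le_antisymm hHH' (hH.2 hH'.1 hHH'), le_antisymm hKK' (hK.2 hK'.1 hKK')]
  exact hall_conj h hH' hK'

/-- A Hall subgroup meets a normal subgroup in a Hall subgroup. -/
theorem isPiHall_inter_normal {H N : Subgroup G} [N.Normal] (hH : Cfsg.IsPiHall π H) :
    Cfsg.IsPiHall π (H.subgroupOf N) := by
  refine ⟨fun p hp hd => hH.1 p hp (hd.trans ?_), fun p hp hpπ hd => hH.2 p hp hpπ (hd.trans ?_)⟩
  · rw [← Subgroup.inf_subgroupOf_right,
      Nat.card_congr (Subgroup.subgroupOfEquivOfLe inf_le_right).toEquiv]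
    exact Subgroup.card_dvd_of_le inf_le_left
  · have e1 : Nat.card ↥(H ⊔ N) = Nat.card N * N.relIndex H := by
      rw [← Subgroup.relIndex_sup_right (H := H) (K := N), ← Subgroup.relIndex_bot_left,
        ← Subgroup.relIndex_bot_left,
        Subgroup.relIndex_mul_relIndex ⊥ N (H ⊔ N) bot_le le_sup_right]
    have e2 : Nat.card ↥(H ⊔ N) = Nat.card H * H.relIndex (H ⊔ N) := by
      rw [← Subgroup.relIndex_bot_left, ← Subgroup.relIndex_bot_left,
        Subgroup.relIndex_mul_relIndex ⊥ H (H ⊔ N) bot_le le_sup_left]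
    have e3 : Nat.card H = Nat.card ↥(H ⊓ N) * N.relIndex H := by
      rw [← Subgroup.inf_relIndex_left H N, ← Subgroup.relIndex_bot_left,
        ← Subgroup.relIndex_bot_left, Subgroup.relIndex_mul_relIndex ⊥ (H ⊓ N) H bot_le inf_le_left]
    have e4 : Nat.card N = Nat.card ↥(H ⊓ N) * H.relIndex N := by
      rw [← Subgroup.inf_relIndex_right H N, ← Subgroup.relIndex_bot_left,
        ← Subgroup.relIndex_bot_left, Subgroup.relIndex_mul_relIndex ⊥ (H ⊓ N) N bot_le inf_le_right]
    have h0 : 0 < Nat.card ↥(H ⊓ N) * N.relIndex H :=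
      e3 ▸ (Nat.card_pos : 0 < Nat.card H)
    have key : H.relIndex N = H.relIndex (H ⊔ N) := by
      refine Nat.eq_of_mul_eq_mul_left h0 ?_
      rw [mul_right_comm, ← e4, ← e1, e2, e3]
    change H.relIndex N ∣ H.index
    rw [key]
    exact Subgroup.relIndex_dvd_index_of_le le_sup_left

end General

variable {α : Type*} [Fintype α] [DecidableEq α] {π : Set ℕ}

theorem card_perm_alpha : Nat.card (Perm α) = (Fintype.card α)! := by
  rw [Nat.card_perm, Nat.card_eq_fintype_card]

theorem le_of_prime_dvd_alt {r : ℕ} (hr : r.Prime)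
    (hd : r ∣ Nat.card ↥(alternatingGroup α)) : r ≤ Fintype.card α := by
  have := hd.trans (alternatingGroup α).card_subgroup_dvd_card
  rw [card_perm_alpha] at this
  exact hr.dvd_factorial.1 this

/-- Hypotheses of the non-trivial case. -/
def TwoCase (π : Set ℕ) (n : ℕ) : Prop :=
  (∃ r s : ℕ, r.Prime ∧ s.Prime ∧ r ≠ s ∧ r ∈ π ∧ s ∈ π ∧ r ≤ n ∧ s ≤ n) ∧
    ∃ r : ℕ, r.Prime ∧ r ≤ n ∧ r ∉ π

theorem easy_perm (h : ¬ TwoCase π (Fintype.card α)) :
    Easy π (Nat.card (Perm α)) ∧ Easy π (Nat.card ↥(alternatingGroup α)) := by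
  have key : ∀ N : ℕ, (∀ r : ℕ, r.Prime → r ∣ N → r ≤ Fintype.card α) → Easy π N := by
    intro N hN
    by_cases hall : ∀ r : ℕ, r.Prime → r ≤ Fintype.card α → r ∈ π
    · exact Or.inr fun r hr hd => hall r hr (hN r hr hd)
    · left
      intro r s hr hs hrπ hsπ hrd hsd
      by_contra hne
      push Not at hall
      exact h ⟨⟨r, s, hr, hs, hne, hrπ, hsπ, hN r hr hrd, hN s hs hsd⟩, hall⟩
  exact ⟨key _ fun r hr hd => hr.dvd_factorial.1 (card_perm_alpha (α := α) ▸ hd),
    key _ fun r hr hd => le_of_prime_dvd_alt hr hd⟩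

theorem hallAlt_map {M : Subgroup ↥(alternatingGroup α)} (hM : Cfsg.IsPiHall π M) :
    HallAlt π (M.map (alternatingGroup α).subtype) := by
  refine ⟨Subgroup.map_subtype_le _, fun p hp hd => hM.1 p hp ?_, fun p hp hpπ hd => hM.2 p hp hpπ ?_⟩
  · rwa [← Nat.card_congr (Subgroup.equivMapOfInjective _ _
      (alternatingGroup α).subtype_injective).toEquiv] at hd
  · rwa [Subgroup.relIndex, Subgroup.subgroupOf,
      Subgroup.comap_map_eq_self_of_injective (alternatingGroup α).subtype_injective] at hd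

theorem hallAlt_inter {H : Subgroup (Perm α)} (hH : Cfsg.IsPiHall π H) :
    HallAlt π (H ⊓ alternatingGroup α) := by
  have h := hallAlt_map (isPiHall_inter_normal (N := alternatingGroup α) hH)
  rwa [Subgroup.subgroupOf_map_subtype] at h

/-- A Hall subgroup of the alternating group is cut out by one of the symmetric group. -/
theorem exists_lift {M : Subgroup ↥(alternatingGroup α)} (hM : Cfsg.IsPiHall π M) :
    ∃ M₀ : Subgroup (Perm α), Cfsg.IsPiHall π M₀ ∧ M = M₀.subgroupOf (alternatingGroup α) := by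
  by_cases h : TwoCase π (Fintype.card α)
  · obtain ⟨A, -, hA, -, hS⟩ := classify (hallAlt_map hM) h.1 h.2
    refine ⟨split A, hS, ?_⟩
    have h' := congrArg (fun L => L.subgroupOf (alternatingGroup α)) hA
    simp only [Subgroup.inf_subgroupOf_right] at h'
    rwa [Subgroup.subgroupOf,
      Subgroup.comap_map_eq_self_of_injective (alternatingGroup α).subtype_injective] at h'
  · obtain ⟨M₀, hM₀, hle⟩ := exists_hall_ge (easy_perm h).1
      (K := M.map (alternatingGroup α).subtype) (hallAlt_map hM).2.1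
    refine ⟨M₀, hM₀, eq_of_hall_le hM ?_ (isPiHall_inter_normal hM₀).1⟩
    intro x hx
    exact hle (Subgroup.mem_map_of_mem _ hx)

/-- In the non-trivial case a Hall subgroup of `S_n` is a standard stabiliser. -/
theorem classify_perm {H : Subgroup (Perm α)} (hH : Cfsg.IsPiHall π H)
    (h : TwoCase π (Fintype.card α)) : ∃ A : Finset α, Standard π A ∧ H = split A := by
  obtain ⟨A, hA, -, hnorm, hS⟩ := classify (hallAlt_inter hH) h.1 h.2
  refine ⟨A, hA, eq_of_hall_le hH (fun g hg => hnorm g fun m => ?_) hS.1⟩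
  have hAn : g * m * g⁻¹ ∈ alternatingGroup α ↔ m ∈ alternatingGroup α := by
    rw [mem_alternatingGroup, mem_alternatingGroup, map_mul, map_mul, map_inv,
      mul_comm (sign g), mul_inv_cancel_right]
  rw [Subgroup.mem_inf, Subgroup.mem_inf, hAn,
    Subgroup.mul_mem_cancel_right H (H.inv_mem hg), Subgroup.mul_mem_cancel_left H hg]

theorem Standard.card_eq {A B : Finset α} (hA : Standard π A) (hB : Standard π B) :
    A.card = B.card := by
  rcases hA with ⟨ha, hp, h1⟩ | ⟨ha, hn, h1⟩ <;> rcases hB with ⟨hb, hp', h2⟩ | ⟨hb, hn', h2⟩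
  · omega
  · exfalso
    rcases hn' with hn | hn <;> rw [hn] at h1 h2 hp
    · have := (h1 5 (by norm_num) (by norm_num)).2 (by norm_num)
      simpa using (h2 5 (by norm_num) (by norm_num)).1 this
    · exact absurd hp (by norm_num)
  · exfalso
    rcases hn with hn | hn <;> rw [hn] at h1 h2 hp'
    · have := (h2 5 (by norm_num) (by norm_num)).2 (by norm_num)
      simpa using (h1 5 (by norm_num) (by norm_num)).1 this
    · exact absurd hp' (by norm_num)
  · omega

theorem exists_map_eq {A B : Finset α} (h : A.card = B.card) :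
    ∃ σ : Perm α, A.map σ.toEmbedding = B := by
  let e : {x // x ∈ A} ≃ {x // x ∈ B} := Finset.equivOfCardEq h
  refine ⟨e.extendSubtype, Finset.eq_of_subset_of_card_le (fun x hx => ?_) (by rw [Finset.card_map, h])⟩
  obtain ⟨a, ha, rfl⟩ := Finset.mem_map.1 hx
  exact e.extendSubtype_mem a ha

theorem conj_split (σ : Perm α) (A : Finset α) {g : Perm α} :
    σ⁻¹ * g * σ ∈ split A ↔ g ∈ split (A.map σ.toEmbedding) := by
  have hmem : ∀ x, x ∈ A.map σ.toEmbedding ↔ σ⁻¹ x ∈ A := fun x => by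
    rw [Finset.mem_map_equiv]; rfl
  constructor
  · intro h a b
    have := h (σ⁻¹ a) (σ⁻¹ b)
    simp only [hmem]
    simpa using this
  · intro h a b
    have := h (σ a) (σ b)
    simp only [hmem] at this
    simpa using this

theorem map_conj_split (σ : Perm α) (A : Finset α) :
    (split A).map (MulAut.conj σ).toMonoidHom = split (A.map σ.toEmbedding) := by
  ext g
  rw [Subgroup.mem_map_equiv, ← conj_split]
  simp [mul_assoc]

/-- An odd element in the standard stabilisers. -/
theorem exists_odd_split {A : Finset α} (hA : Standard π A) (hn3 : 3 ≤ Fintype.card α) : ∃ g ∈ split A, sign g = -1 := by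
  obtain ⟨x, y, hxy, hiff⟩ : ∃ x y : α, x ≠ y ∧ (x ∈ A ↔ y ∈ A) := by
    rcases hA with ⟨hc, hp, h⟩ | ⟨hc, -⟩
    · have h3 : 3 ≤ Fintype.card α := hn3
      obtain ⟨x, hx, y, hy, hxy⟩ := Finset.one_lt_card.1
        (show 1 < Aᶜ.card by rw [Finset.card_compl, hc]; omega)
      exact ⟨x, y, hxy, by simp [Finset.mem_compl.1 hx, Finset.mem_compl.1 hy]⟩
    · obtain ⟨x, hx, y, hy, hxy⟩ := Finset.one_lt_card.1 (show 1 < A.card by omega)
      exact ⟨x, y, hxy, by simp [hx, hy]⟩
  refine ⟨swap x y, fun a b => ?_, sign_swap hxy⟩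
  have h : ∀ z, swap x y z ∈ A ↔ z ∈ A := by
    intro z
    rcases eq_or_ne z x with rfl | h1
    · rw [swap_apply_left]; exact hiff.symm
    rcases eq_or_ne z y with rfl | h2
    · rw [swap_apply_right]; exact hiff
    · rw [swap_apply_of_ne_of_ne h1 h2]
  rw [h, h]

/-- Any two Hall subgroups of `S_n` are conjugate. -/
theorem isCPi_perm (hE : Cfsg.IsEPiGroup π (Perm α)) : Cfsg.IsCPiGroup π (Perm α) := by
  by_cases h : TwoCase π (Fintype.card α)
  · refine ⟨hE, fun H K hH hK => ?_⟩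
    obtain ⟨A, hA, rfl⟩ := classify_perm hH h
    obtain ⟨B, hB, rfl⟩ := classify_perm hK h
    obtain ⟨σ, hσ⟩ := exists_map_eq (hA.card_eq hB)
    exact ⟨σ, by rw [map_conj_split, hσ]⟩
  · exact isCPi_of_easy (easy_perm h).1

/-- Any two Hall subgroups of `A_n` are conjugate. -/
theorem isCPi_alt (hE : Cfsg.IsEPiGroup π ↥(alternatingGroup α)) :
    Cfsg.IsCPiGroup π ↥(alternatingGroup α) := by
  by_cases h : TwoCase π (Fintype.card α)
  · refine ⟨hE, fun H K hH hK => ?_⟩
    obtain ⟨A, hA, hHA, -⟩ := classify (hallAlt_map hH) h.1 h.2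
    obtain ⟨B, hB, hKB, -⟩ := classify (hallAlt_map hK) h.1 h.2
    obtain ⟨σ, hσ⟩ := exists_map_eq (hA.card_eq hB)
    obtain ⟨τ, hτA, hτs⟩ := exists_odd_split hA (by
      obtain ⟨r, s, hr, hs, hne, -, -, hrn, hsn⟩ := h.1
      have := hr.two_le; have := hs.two_le; omega)
    obtain ⟨ρ, hρ, hρB⟩ : ∃ ρ : Perm α, ρ ∈ alternatingGroup α ∧
        (split A).map (MulAut.conj ρ).toMonoidHom = split B := by
      rcases Int.units_eq_one_or (sign σ) with hs | hs
      · exact ⟨σ, mem_alternatingGroup.2 hs, by rw [map_conj_split, hσ]⟩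
      · refine ⟨σ * τ, mem_alternatingGroup.2 (by rw [map_mul, hs, hτs]; rfl), ?_⟩
        rw [← hσ, ← map_conj_split]
        ext g
        rw [Subgroup.mem_map_equiv, Subgroup.mem_map_equiv]
        simp only [MulAut.conj_symm_apply, mul_inv_rev]
        rw [show τ⁻¹ * σ⁻¹ * g * (σ * τ) = τ⁻¹ * (σ⁻¹ * g * σ) * τ by group,
          Subgroup.mul_mem_cancel_right _ hτA,
          Subgroup.mul_mem_cancel_left _ ((split A).inv_mem hτA)]
    have memH : ∀ x : ↥(alternatingGroup α), x ∈ H ↔ (x : Perm α) ∈ split A := by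
      intro x
      rw [← Subgroup.mem_map_iff_mem (alternatingGroup α).subtype_injective, hHA, Subgroup.mem_inf]
      exact ⟨fun h => h.1, fun h => ⟨h, x.2⟩⟩
    have memK : ∀ x : ↥(alternatingGroup α), x ∈ K ↔ (x : Perm α) ∈ split B := by
      intro x
      rw [← Subgroup.mem_map_iff_mem (alternatingGroup α).subtype_injective, hKB, Subgroup.mem_inf]
      exact ⟨fun h => h.1, fun h => ⟨h, x.2⟩⟩
    refine ⟨⟨ρ, hρ⟩, ?_⟩
    ext x
    rw [Subgroup.mem_map_equiv, memK, memH, ← hρB, Subgroup.mem_map_equiv]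
    rfl
  · exact isCPi_of_easy (easy_perm h).2

end Cfsg.Agent.H63.Hall
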