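import Mathlib
import Cfsg.Agent.H63.Hall.Derived

/-!
# Existence of the exceptional Hall subgroups, and π-subgroups outside them
-/

set_option autoImplicit false
set_option linter.style.haveILetI false
set_option linter.unusedSectionVars false

namespace Cfsg.Agent.H63.Hall

open Equiv Equiv.Perm
open scoped Nat

variable {α : Type*} [Fintype α] [DecidableEq α] {π : Set ℕ}

/-- The point stabiliser in prime degree. -/
theorem hall_point (hp : (Fintype.card α).Prime)
    (h : ∀ r : ℕ, r.Prime → r ≤ Fintype.card α → (r ∈ π ↔ r < Fintype.card α)) :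
    Cfsg.IsEPiGroup π (Perm α) := by
  have : Nonempty α := Fintype.card_pos_iff.1 hp.pos
  obtain ⟨x⟩ := this
  refine ⟨MulAction.stabilizer (Perm α) x, ?_⟩
  have hidx : (MulAction.stabilizer (Perm α) x).index = Fintype.card α := by
    rw [MulAction.index_stabilizer_of_transitive, Nat.card_eq_fintype_card]
  have hcard : Nat.card ↥(MulAction.stabilizer (Perm α) x) = (Fintype.card α - 1)! := by
    have h1 := (MulAction.stabilizer (Perm α) x).card_mul_index
    rw [hidx, card_perm_alpha, ← Nat.mul_factorial_pred hp.ne_zero, mul_comm] at h1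
    exact Nat.eq_of_mul_eq_mul_left hp.pos h1
  refine ⟨fun r hr hd => ?_, fun r hr hrπ hd => ?_⟩
  · rw [hcard, hr.dvd_factorial] at hd
    exact (h r hr (by omega)).2 (by have := hp.two_le; omega)
  · rw [hidx] at hd
    have hle := Nat.le_of_dvd hp.pos hd
    have := (h r hr hle).1 hrπ
    have := (Nat.prime_dvd_prime_iff_eq hr hp).1 hd
    omega

/-- The stabiliser of a split contains the product of the two symmetric groups. -/
theorem subtypeCongr_mem_split (A : Finset α) (σ : Perm {x // x ∈ A} × Perm {x // ¬ x ∈ A}) :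
    subtypeCongrHom (· ∈ A) σ ∈ split A := by
  have key : ∀ a, subtypeCongrHom (· ∈ A) σ a ∈ A ↔ a ∈ A := by
    intro a
    by_cases ha : a ∈ A
    · simp [ha]
    · simpa [ha] using (σ.2 ⟨a, ha⟩).2
  intro a b
  rw [key, key]

/-- The parity with which an element of `split A` moves the two sides. -/
theorem split_uniform {A : Finset α} {g : Perm α} (hg : g ∈ split A) {x : α}
    (hx : g x ∈ A ↔ x ∈ A) (y : α) : g y ∈ A ↔ y ∈ A := by
  have := hg x y
  tauto

theorem card_range_subtypeCongr (A : Finset α) :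
    Nat.card ↥(subtypeCongrHom (α := α) (· ∈ A)).range
      = A.card ! * (Fintype.card α - A.card)! := by
  rw [← Nat.card_congr (MonoidHom.ofInjective (subtypeCongrHom_injective (· ∈ A))).toEquiv,
    Nat.card_prod, Nat.card_perm, Nat.card_perm, Nat.card_eq_fintype_card,
    Nat.card_eq_fintype_card, Fintype.card_subtype_compl, Fintype.card_coe]

/-- Degree seven: `S₄ × S₃`. -/
theorem hall_seven (hn : Fintype.card α = 7)
    (h : ∀ r : ℕ, r.Prime → r ≤ Fintype.card α → (r ∈ π ↔ r = 2 ∨ r = 3)) :
    Cfsg.IsEPiGroup π (Perm α) := by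
  obtain ⟨A, hA⟩ : ∃ A : Finset α, A.card = 4 := by
    obtain ⟨A, -, hA⟩ := Finset.exists_subset_card_eq (s := (Finset.univ : Finset α)) (n := 4)
      (by rw [Finset.card_univ, hn]; norm_num)
    exact ⟨A, hA⟩
  set H := (subtypeCongrHom (α := α) (· ∈ A)).range
  have hc : Nat.card H = 144 := by
    rw [card_range_subtypeCongr, hA, hn]; decide
  have hi : H.index = 35 := by
    have h1 := H.card_mul_index
    rw [hc, card_perm_alpha, hn, show (7 : ℕ)! = 144 * 35 by decide] at h1
    exact Nat.eq_of_mul_eq_mul_left (by norm_num) h1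
  refine ⟨H, fun r hr hd => ?_, fun r hr hrπ hd => ?_⟩
  · rw [hc] at hd
    have hd' : r ∣ 2 ^ 4 * 3 ^ 2 := by norm_num; exact hd
    rcases hr.dvd_mul.1 hd' with h' | h'
    · have := (Nat.prime_dvd_prime_iff_eq hr Nat.prime_two).1 (hr.dvd_of_dvd_pow h')
      exact (h r hr (by omega)).2 (Or.inl this)
    · have := (Nat.prime_dvd_prime_iff_eq hr Nat.prime_three).1 (hr.dvd_of_dvd_pow h')
      exact (h r hr (by omega)).2 (Or.inr this)
  · rw [hi, show (35 : ℕ) = 5 * 7 by norm_num] at hd
    rcases hr.dvd_mul.1 hd with h' | h'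
    · have := (Nat.prime_dvd_prime_iff_eq hr Nat.prime_five).1 h'
      have := (h r hr (by omega)).1 hrπ
      omega
    · have := (Nat.prime_dvd_prime_iff_eq hr (by norm_num)).1 h'
      have := (h r hr (by omega)).1 hrπ
      omega

/-- Degree eight: `S₄ ≀ S₂`. -/
theorem hall_eight (hn : Fintype.card α = 8)
    (h : ∀ r : ℕ, r.Prime → r ≤ Fintype.card α → (r ∈ π ↔ r = 2 ∨ r = 3)) :
    Cfsg.IsEPiGroup π (Perm α) := by
  classical
  obtain ⟨A, hA⟩ : ∃ A : Finset α, A.card = 4 := by
    obtain ⟨A, -, hA⟩ := Finset.exists_subset_card_eq (s := (Finset.univ : Finset α)) (n := 4)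
      (by rw [Finset.card_univ, hn]; norm_num)
    exact ⟨A, hA⟩
  obtain ⟨a0, ha0⟩ := Finset.card_pos.1 (by omega : 0 < A.card)
  set S := split A
  -- an element exchanging the two sides
  obtain ⟨w, hw⟩ := exists_map_eq (A := A) (B := Aᶜ) (by rw [Finset.card_compl, hA, hn])
  have hwA : ∀ x, w x ∈ A ↔ ¬ x ∈ A := by
    intro x
    have h1 : w x ∈ A.map w.toEmbedding ↔ x ∈ A := by simp
    rw [hw, Finset.mem_compl] at h1
    tauto
  have hwS : w ∈ S := fun a b => by rw [hwA, hwA]; tauto
  let f : S →* ℤˣ :=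
    { toFun := fun g => if (g : Perm α) a0 ∈ A then 1 else -1
      map_one' := by simp [ha0]
      map_mul' := fun g g' => by
        have := g.2 a0 ((g' : Perm α) a0)
        by_cases h1 : (g : Perm α) a0 ∈ A <;> by_cases h2 : (g' : Perm α) a0 ∈ A <;>
          simp_all }
  have hker : ∀ g : S, g ∈ f.ker ↔ (g : Perm α) a0 ∈ A := by
    intro g
    by_cases h1 : (g : Perm α) a0 ∈ A <;> simp [f, h1]
  have hrange : Nat.card f.range = 2 := by
    rw [MonoidHom.range_eq_top.2, Subgroup.card_top, Nat.card_eq_fintype_card,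
      Fintype.card_units_int]
    intro u
    rcases Int.units_eq_one_or u with rfl | rfl
    · exact ⟨1, map_one f⟩
    · exact ⟨⟨w, hwS⟩, by simp [f, hwA, ha0]⟩
  have hkc : Nat.card f.ker = 576 := by
    have heq : f.ker.map S.subtype = (subtypeCongrHom (α := α) (· ∈ A)).range := by
      ext g
      constructor
      · rintro ⟨g, hg, rfl⟩
        have hfix : ∀ x, (g : Perm α) x ∈ A ↔ x ∈ A :=
          split_uniform g.2 (x := a0) (by simp [ha0, (hker g).1 hg])
        refine ⟨((g : Perm α).subtypePerm hfix, (g : Perm α).subtypePerm (p := fun x => ¬ x ∈ A)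
          (fun x => not_congr (hfix x))), ?_⟩
        ext x
        by_cases hx : x ∈ A <;> simp [subtypeCongr.apply, hx]
      · rintro ⟨σ, rfl⟩
        refine ⟨⟨_, subtypeCongr_mem_split A σ⟩, (hker _).2 ?_, rfl⟩
        simpa [subtypeCongr.apply, ha0] using (σ.1 ⟨a0, ha0⟩).2
    rw [Nat.card_congr (Subgroup.equivMapOfInjective f.ker _ S.subtype_injective).toEquiv, heq,
      card_range_subtypeCongr, hA, hn]
    decide
  have hc : Nat.card S = 1152 := by
    rw [← Subgroup.card_mul_index f.ker, Subgroup.index_ker, hrange, hkc]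
  have hi : S.index = 35 := by
    have h1 := S.card_mul_index
    rw [hc, card_perm_alpha, hn, show (8 : ℕ)! = 1152 * 35 by decide] at h1
    exact Nat.eq_of_mul_eq_mul_left (by norm_num) h1
  refine ⟨S, fun r hr hd => ?_, fun r hr hrπ hd => ?_⟩
  · rw [hc] at hd
    have hd' : r ∣ 2 ^ 7 * 3 ^ 2 := by norm_num; exact hd
    rcases hr.dvd_mul.1 hd' with h' | h'
    · have := (Nat.prime_dvd_prime_iff_eq hr Nat.prime_two).1 (hr.dvd_of_dvd_pow h')
      exact (h r hr (by omega)).2 (Or.inl this)
    · have := (Nat.prime_dvd_prime_iff_eq hr Nat.prime_three).1 (hr.dvd_of_dvd_pow h')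
      exact (h r hr (by omega)).2 (Or.inr this)
  · rw [hi, show (35 : ℕ) = 5 * 7 by norm_num] at hd
    rcases hr.dvd_mul.1 hd with h' | h'
    · have := (Nat.prime_dvd_prime_iff_eq hr Nat.prime_five).1 h'
      have := (h r hr (by omega)).1 hrπ
      omega
    · have := (Nat.prime_dvd_prime_iff_eq hr (by norm_num)).1 h'
      have := (h r hr (by omega)).1 hrπ
      omega

/-- The sign as a permutation of two points. -/
def signPerm : ℤˣ →* Perm (Fin 2) where
  toFun u := if u = 1 then 1 else swap 0 1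
  map_one' := rfl
  map_mul' := by decide

theorem sign_signPerm : ∀ u : ℤˣ, sign (signPerm u) = u := by decide

/-- A group of even permutations `≅ S_{n-2}` without fixed points. -/
theorem exists_no_fixed {n : ℕ} (hn : 5 ≤ n) :
    ∃ K : Subgroup (Perm (Fin n)), K ≤ alternatingGroup (Fin n) ∧ Nat.card K ∣ (n - 2)! ∧
      ∀ x, ∃ g ∈ K, g x ≠ x := by
  classical
  let τ : Perm (Fin (n - 2)) →* Perm (Fin (n - 2) ⊕ Fin 2) :=
    (sumCongrHom (Fin (n - 2)) (Fin 2)).comp
      ((MonoidHom.id _).prod (signPerm.comp sign))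
  let e : Fin (n - 2) ⊕ Fin 2 ≃ Fin n := finSumFinEquiv.trans (finCongr (by omega))
  let F : Perm (Fin (n - 2)) →* Perm (Fin n) := e.permCongrHom.toMonoidHom.comp τ
  refine ⟨F.range, ?_, ?_, fun x => ?_⟩
  · rintro _ ⟨σ, rfl⟩
    rw [mem_alternatingGroup]
    change sign (e.permCongr (Equiv.Perm.sumCongr σ (signPerm (sign σ)))) = 1
    rw [sign_permCongr, sign_sumCongr, sign_signPerm]
    exact Int.units_mul_self _
  · refine (Subgroup.card_range_dvd F).trans ?_
    rw [Nat.card_perm, Nat.card_fin]
  · obtain ⟨y, rfl⟩ := e.surjective x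
    rcases y with i | j
    · obtain ⟨k, hk⟩ := Fintype.exists_ne_of_one_lt_card
        (by rw [Fintype.card_fin]; omega) i
      refine ⟨F (swap i k), ⟨_, rfl⟩, ?_⟩
      simp [F, τ, hk]
    · refine ⟨F (swap (⟨0, by omega⟩ : Fin (n - 2)) ⟨1, by omega⟩), ⟨_, rfl⟩, ?_⟩
      have h : sign (swap (⟨0, by omega⟩ : Fin (n - 2)) ⟨1, by omega⟩) = -1 := sign_swap (by simp)
      simp only [F, τ, MonoidHom.comp_apply]
      have hs : signPerm (-1) = swap 0 1 := rfl
      simp [h, hs]
      fin_cases j <;> simp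

/-- The six edges of a tetrahedron. -/
abbrev Edge : Type := {s : Finset (Fin 4) // s.card = 2}

/-- Permutations of four points acting on the six edges. -/
def edgeAct : Perm (Fin 4) →* Perm Edge where
  toFun g :=
    { toFun := fun s => ⟨(s : Finset (Fin 4)).map g.toEmbedding, by rw [Finset.card_map]; exact s.2⟩
      invFun := fun s => ⟨(s : Finset (Fin 4)).map g.symm.toEmbedding,
        by rw [Finset.card_map]; exact s.2⟩
      left_inv := fun s => Subtype.ext (by ext; simp)
      right_inv := fun s => Subtype.ext (by ext; simp) }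
  map_one' := by ext s x; simp [Perm.one_def]
  map_mul' g h := Equiv.ext fun s => Subtype.ext (by
    change (s : Finset (Fin 4)).map _ = ((s : Finset (Fin 4)).map _).map _
    rw [Finset.map_map]; rfl)

theorem sign_edgeAct : ∀ g : Perm (Fin 4), sign g = 1 → sign (edgeAct g) = 1 := by decide +kernel

theorem edge_two_step : ∀ s t : Edge, ∃ g h : Perm (Fin 4), sign g = 1 ∧ sign h = 1 ∧ g ^ 3 = 1 ∧
    h ^ 3 = 1 ∧ edgeAct g (edgeAct h s) = t := by decide +kernel

/-- A `{2,3}`-group of even permutations respecting no `4 | n-4` split, `n = 7, 8`. -/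
theorem exists_no_split {n : ℕ} (hn : n = 7 ∨ n = 8) :
    ∃ K : Subgroup (Perm (Fin n)), K ≤ alternatingGroup (Fin n) ∧ Nat.card K ∣ 12 ∧
      ∀ B : Finset (Fin n), B.card = 4 → ¬ K ≤ split B := by
  classical
  have hE : Fintype.card Edge = 6 := by decide
  let e : Edge ⊕ Fin (n - 6) ≃ Fin n := Fintype.equivFinOfCardEq (by
    rw [Fintype.card_sum, hE, Fintype.card_fin]; omega)
  let F : ↥(alternatingGroup (Fin 4)) →* Perm (Fin n) := e.permCongrHom.toMonoidHom.comp
    ((sumCongrHom Edge (Fin (n - 6))).comp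
      ((edgeAct.comp (alternatingGroup (Fin 4)).subtype).prod 1))
  refine ⟨F.range, ?_, ?_, fun B hB hle => ?_⟩
  · rintro _ ⟨g, rfl⟩
    rw [mem_alternatingGroup]
    change sign (e.permCongr (Equiv.Perm.sumCongr (edgeAct g) 1)) = 1
    rw [sign_permCongr, sign_sumCongr, map_one, mul_one]
    exact sign_edgeAct _ (mem_alternatingGroup.1 g.2)
  · refine (Subgroup.card_range_dvd F).trans ?_
    rw [Nat.card_eq_fintype_card]
    decide
  · have hstep : ∀ g : ↥(alternatingGroup (Fin 4)), g ^ 3 = 1 → ∀ x, F g x ∈ B ↔ x ∈ B := by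
      intro g hg x
      have hgS : F g ∈ split B := hle ⟨g, rfl⟩
      have h3 : ∀ y, F g (F g (F g y)) = y := by
        intro y
        have := congrArg (fun σ => (σ : Perm (Fin n)) y) (congrArg F hg)
        simpa [map_pow, pow_succ] using this
      by_contra hx
      have hflip : ∀ y, F g y ∈ B ↔ ¬ y ∈ B := by
        intro y
        by_contra hy
        exact hx (split_uniform hgS (x := y) (by tauto) x)
      have := hflip (F g (F g x))
      rw [h3, hflip, hflip] at this
      tauto
    obtain ⟨s0⟩ : Nonempty Edge := Fintype.card_pos_iff.1 (by omega)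
    have hconst : ∀ t : Edge, e (Sum.inl t) ∈ B ↔ e (Sum.inl s0) ∈ B := by
      intro t
      obtain ⟨g, h, hg, hh, hg3, hh3, rfl⟩ := edge_two_step s0 t
      have h1 := hstep ⟨g, mem_alternatingGroup.2 hg⟩ (Subtype.ext hg3) (e (Sum.inl (edgeAct h s0)))
      have h2 := hstep ⟨h, mem_alternatingGroup.2 hh⟩ (Subtype.ext hh3) (e (Sum.inl s0))
      simp [F] at h1 h2
      rw [h1, h2]
    by_cases h0 : e (Sum.inl s0) ∈ B
    · have h1 : (Finset.univ.map (Function.Embedding.inl.trans e.toEmbedding) :
          Finset (Fin n)).card ≤ B.card := Finset.card_le_card fun x hx => by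
        obtain ⟨t, -, rfl⟩ := Finset.mem_map.1 hx
        exact (hconst t).2 h0
      rw [Finset.card_map, Finset.card_univ, hE, hB] at h1
      omega
    · have h1 : B.card ≤ (Finset.univ.map (Function.Embedding.inr.trans e.toEmbedding) :
          Finset (Fin n)).card := Finset.card_le_card fun x hx => by
        obtain ⟨y, rfl⟩ := e.surjective x
        rcases y with t | k
        · exact absurd ((hconst t).1 hx) h0
        · exact Finset.mem_map.2 ⟨k, Finset.mem_univ _, rfl⟩
      rw [Finset.card_map, Finset.card_univ, Fintype.card_fin, hB] at h1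
      omega

end Cfsg.Agent.H63.Hall
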